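import Mathlib
import Cfsg.Agent.Lib.Helper96.HallSymStmt

/-!
# S2536, piece HSYL: a Hall `π`-subgroup of `Perm Ω` contains a `p`-cycle for `p ∈ π`, `p ≤ |Ω|`
-/

set_option autoImplicit false

namespace Cfsg.Agent.Lib.Helper13.HSHSYL

open Equiv Cfsg.Agent.Lib.Helper96.HallSymStmt

/-- a `p`-subgroup is conjugate into any subgroup of index prime to `p`. -/
theorem conj_mem_of_not_dvd_index {G : Type} [Group G] (p : ℕ) [Fact p.Prime] (H : Subgroup G)
    (hidx : ¬ p ∣ H.index) (c : G) (hc : IsPGroup p (Subgroup.zpowers c)) :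
    ∃ g : G, g⁻¹ * c * g ∈ H := by
  have hne : (MulAction.fixedPoints (Subgroup.zpowers c) (G ⧸ H)).Nonempty :=
    hc.nonempty_fixed_point_of_prime_not_dvd_card (G ⧸ H) hidx
  obtain ⟨x, hx⟩ := hne
  induction x using QuotientGroup.induction_on with
  | H g =>
    refine ⟨g, ?_⟩
    have h1 := hx ⟨c, Subgroup.mem_zpowers c⟩
    have h2 : ((c * g : G) : G ⧸ H) = (g : G ⧸ H) := h1
    rw [QuotientGroup.eq] at h2
    have h3 := H.inv_mem h2
    have h4 : ((c * g)⁻¹ * g)⁻¹ = g⁻¹ * c * g := by group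
    rw [h4] at h3
    exact h3

theorem main : Cfsg.Agent.Lib.Helper96.HallSymStmt.HSYL := by
  intro Ω _ _ π H hH p hp hpπ hle
  have : Fact p.Prime := ⟨hp⟩
  -- a `p`-cycle
  obtain ⟨c, hc⟩ : ∃ c : Perm Ω, c.cycleType = {p} := by
    rw [Equiv.Perm.exists_with_cycleType_iff]
    refine ⟨by simpa using hle, ?_⟩
    intro a ha
    rw [Multiset.mem_singleton] at ha
    rw [ha]; exact hp.two_le
  have hcyc : c.IsCycle := by
    rw [← Equiv.Perm.card_cycleType_eq_one, hc]; simp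
  have hsupp : c.support.card = p := by
    rw [← Equiv.Perm.sum_cycleType, hc]; simp
  have hord : orderOf c = p := by rw [hcyc.orderOf, hsupp]
  have hpg : IsPGroup p (Subgroup.zpowers c) := by
    apply IsPGroup.of_card (n := 1)
    rw [Nat.card_zpowers, hord, pow_one]
  obtain ⟨g, hg⟩ := conj_mem_of_not_dvd_index p H (hH.2 p hp hpπ) c hpg
  refine ⟨g⁻¹ * c * g, hg, ?_, ?_⟩
  · have h1 := hcyc.conj (g := g⁻¹)
    rwa [inv_inv] at h1
  · have h1 := Equiv.Perm.card_support_conj (σ := g⁻¹) (τ := c)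
    rw [inv_inv] at h1
    rw [h1, hsupp]

end Cfsg.Agent.Lib.Helper13.HSHSYL
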