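import Mathlib
import Cfsg.Agent.Lib.Helper96.HallSymStmt

/-!
# S2536: the stabilizer of a subset `Δ` in `Perm Ω` as the range of `subtypeCongrHom`
-/

set_option autoImplicit false

namespace Cfsg.Agent.Lib.Helper13.HSSetStab

open Equiv Cfsg.Agent.Lib.Helper96.HallSymStmt

variable {Ω : Type} [Fintype Ω] [DecidableEq Ω]

/-- the set stabilizer `≅ Perm Δ × Perm Δᶜ` -/
noncomputable def stab (Δ : Set Ω) : Subgroup (Perm Ω) :=
  haveI : DecidablePred (· ∈ Δ) := Classical.decPred _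
  (Perm.subtypeCongrHom (· ∈ Δ)).range

omit [Fintype Ω] [DecidableEq Ω] in
theorem inv_iff {H : Subgroup (Perm Ω)} {Δ : Set Ω} (hΔ : InvS H Δ) :
    ∀ h ∈ H, ∀ x, h x ∈ Δ ↔ x ∈ Δ := by
  intro h hh x
  constructor
  · intro hx
    have h1 := hΔ h⁻¹ (H.inv_mem hh) (h x) hx
    simpa using h1
  · exact hΔ h hh x

omit [Fintype Ω] [DecidableEq Ω] in
theorem le_stab {H : Subgroup (Perm Ω)} {Δ : Set Ω} (hΔ : InvS H Δ) : H ≤ stab Δ := by
  classical
  intro h hh
  have hiff := inv_iff hΔ h hh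
  have hiff' : ∀ x, ¬ (h x ∈ Δ) ↔ ¬ (x ∈ Δ) := fun x => not_congr (hiff x)
  refine ⟨(h.subtypePerm hiff, h.subtypePerm hiff'), ?_⟩
  ext x
  by_cases hx : x ∈ Δ
  · show ((h.subtypePerm hiff).subtypeCongr (h.subtypePerm hiff')) x = h x
    rw [Perm.subtypeCongr.left_apply _ _ hx]; rfl
  · show ((h.subtypePerm hiff).subtypeCongr (h.subtypePerm hiff')) x = h x
    rw [Perm.subtypeCongr.right_apply _ _ hx]; rfl

omit [DecidableEq Ω] in
theorem card_stab (Δ : Set Ω) :
    Nat.card (stab Δ) = (Δ.ncard).factorial * (Fintype.card Ω - Δ.ncard).factorial := by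
  classical
  have e := (MonoidHom.ofInjective (Perm.subtypeCongrHom_injective (· ∈ Δ))).toEquiv
  have h0 : Nat.card (stab Δ) = Nat.card (Perm {a // a ∈ Δ} × Perm {a // ¬ a ∈ Δ}) := by
    unfold stab
    exact (Nat.card_congr e).symm
  rw [h0, Nat.card_prod, Nat.card_perm, Nat.card_perm]
  congr 2
  rw [Nat.card_eq_fintype_card, Fintype.card_subtype_compl, ← Nat.card_eq_fintype_card,
    ← Nat.card_eq_fintype_card]
  rfl

omit [DecidableEq Ω] in
theorem index_stab (Δ : Set Ω) : (stab Δ).index = Nat.choose (Fintype.card Ω) Δ.ncard := by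
  classical
  have h1 := (stab Δ).card_mul_index
  rw [card_stab, Nat.card_perm, Nat.card_eq_fintype_card] at h1
  have hk : Δ.ncard ≤ Fintype.card Ω := by
    rw [← Nat.card_eq_fintype_card, ← Set.ncard_univ]
    exact Set.ncard_le_ncard (Set.subset_univ _)
  have h2 := Nat.choose_mul_factorial_mul_factorial hk
  have hpos : 0 < (Δ.ncard).factorial * (Fintype.card Ω - Δ.ncard).factorial := by positivity
  apply Nat.eq_of_mul_eq_mul_left hpos
  rw [h1, ← h2]; ring

end Cfsg.Agent.Lib.Helper13.HSSetStab
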