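import Mathlib
import Cfsg.Agent.Lib.Helper96.HallSymStmt
import Cfsg.Agent.Lib.Helper13.HSSetStab

/-!
# S2536, piece SSA: no prime of `π` divides `C(n, |Δ|)` for an invariant subset `Δ`
-/

set_option autoImplicit false

namespace Cfsg.Agent.Lib.Helper13.HSSSA

open Equiv Cfsg.Agent.Lib.Helper96.HallSymStmt Cfsg.Agent.Lib.Helper13

theorem main : Cfsg.Agent.Lib.Helper96.HallSymStmt.SSA := by
  intro Ω _ _ π H hH Δ hΔ p hp hpπ hdvd
  have h3 : (HSSetStab.stab Δ).index ∣ H.index := Subgroup.index_dvd_of_le (HSSetStab.le_stab hΔ)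
  rw [HSSetStab.index_stab] at h3
  exact hH.2 p hp hpπ (dvd_trans hdvd h3)

end Cfsg.Agent.Lib.Helper13.HSSSA
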