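import Mathlib
import Cfsg.Agent.Lib.Helper96.HallSymStmt
import Cfsg.Agent.Lib.Helper13.HSSetStab

/-!
# S2536, piece SSB: a Hall `π`-subgroup with an invariant subset `Δ` induces a Hall `π`-subgroup
of `Perm Δ`
-/

set_option autoImplicit false

namespace Cfsg.Agent.Lib.Helper13.HSSSB

open Equiv Cfsg.Agent.Lib.Helper96.HallSymStmt Cfsg.Agent.Lib.Helper13

variable {Ω : Type}

/-- the classical decidability instance used in `HSSetStab.stab` -/
noncomputable local instance decMem (Δ : Set Ω) : DecidablePred (· ∈ Δ) := Classical.decPred _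

/-- restriction of the set stabilizer to `Δ` -/
noncomputable def res (Δ : Set Ω) : HSSetStab.stab Δ →* Perm ↥Δ :=
  (MonoidHom.fst (Perm {a // a ∈ Δ}) (Perm {a // ¬ a ∈ Δ})).comp
    (show ↥(Perm.subtypeCongrHom (· ∈ Δ)).range →* Perm {a // a ∈ Δ} × Perm {a // ¬ a ∈ Δ} from
      (MonoidHom.ofInjective (Perm.subtypeCongrHom_injective (· ∈ Δ))).symm.toMonoidHom)

theorem res_apply (Δ : Set Ω) (k : HSSetStab.stab Δ) (x : ↥Δ) :
    ((res Δ k x : ↥Δ) : Ω) = k.1 (x : Ω) := by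
  have hinj := Perm.subtypeCongrHom_injective (· ∈ Δ)
  have h1 : MonoidHom.ofInjective hinj ((MonoidHom.ofInjective hinj).symm k) = k :=
    (MonoidHom.ofInjective hinj).apply_symm_apply k
  have h2 : Perm.subtypeCongrHom (· ∈ Δ) ((MonoidHom.ofInjective hinj).symm k) = k.1 :=
    congrArg Subtype.val h1
  have h3 : k.1 (x : Ω) =
      (Perm.subtypeCongrHom (· ∈ Δ) ((MonoidHom.ofInjective hinj).symm k)) (x : Ω) := by
    rw [h2]
  rw [h3]
  show _ = (Perm.subtypeCongr ((MonoidHom.ofInjective hinj).symm k).1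
    ((MonoidHom.ofInjective hinj).symm k).2) (x : Ω)
  rw [Perm.subtypeCongr.left_apply _ _ x.2]
  rfl

theorem res_surjective (Δ : Set Ω) : Function.Surjective (res Δ) := by
  have hinj := Perm.subtypeCongrHom_injective (· ∈ Δ)
  intro σ
  refine ⟨MonoidHom.ofInjective hinj (σ, 1), ?_⟩
  show ((MonoidHom.ofInjective hinj).symm (MonoidHom.ofInjective hinj (σ, 1))).1 = σ
  rw [MulEquiv.symm_apply_apply]

theorem main : Cfsg.Agent.Lib.Helper96.HallSymStmt.SSB' := by
  intro hHIMG Ω _ _ π H hH Δ hΔ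
  have hHK : H ≤ HSSetStab.stab Δ := HSSetStab.le_stab hΔ
  have hH1 : Cfsg.IsPiHall π (H.subgroupOf (HSSetStab.stab Δ)) := by
    constructor
    · intro p hp hdvd
      apply hH.1 p hp
      rwa [Nat.card_congr (Subgroup.subgroupOfEquivOfLe hHK).toEquiv] at hdvd
    · intro p hp hpπ hdvd
      apply hH.2 p hp hpπ
      have h1 := Subgroup.relIndex_mul_index hHK
      rw [← h1]
      exact Dvd.dvd.mul_right hdvd _
  have hH' := hHIMG (HSSetStab.stab Δ) (Perm ↥Δ) π (H.subgroupOf (HSSetStab.stab Δ)) (res Δ)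
    (res_surjective Δ) hH1
  refine ⟨_, hH', ?_, ?_⟩
  · intro h hh
    refine ⟨res Δ ⟨h, hHK hh⟩,
      Subgroup.mem_map_of_mem _ (by rw [Subgroup.mem_subgroupOf]; exact hh), ?_⟩
    intro x
    exact res_apply Δ ⟨h, hHK hh⟩ x
  · intro h' hh'
    obtain ⟨k, hk, rfl⟩ := Subgroup.mem_map.mp hh'
    rw [Subgroup.mem_subgroupOf] at hk
    exact ⟨k.1, hk, fun x => res_apply Δ k x⟩

end Cfsg.Agent.Lib.Helper13.HSSSB
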