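import Mathlib
import Cfsg.Agent.Lib.Helper94.OPStmt
import Cfsg.Agent.Lib.Helper40.AltRank

/-!
# S5989 / PFIXB (call by helper94; second seat)

An isometry `x` of the plus form with `Fix x ≤ (x - 1) V`, `(x - 1) ^ 3 = 0` and
`dim (x - 1) ^ 2 V ≤ 2` stabilising a nondegenerate subspace of odd dimension `m` forces
`m ≡ 3 (mod 4)`.

Abstract core on `W`: with `N = x - 1`, the form `B ((2 N - N ^ 2) u) v` is alternating, so
`rank N = rank (2 N - N ^ 2)` is even; `ker N ≤ range N = (ker N)^⊥`; `m + rank N ^ 2 = 2 rank N`.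
-/

set_option autoImplicit false

universe u

open scoped Matrix

namespace Cfsg.Agent.Lib.Helper13.OPPFIXB

open Cfsg.Agent.Lib.Helper94.OPStmt

theorem two_ne_zero_of_odd {F : Type*} [Field F] [Fintype F] (hq : Odd (Fintype.card F)) :
    (2 : F) ≠ 0 := by
  intro h
  have h1 : addOrderOf (1 : F) = 2 := by
    apply addOrderOf_eq_prime
    · rw [nsmul_eq_mul, mul_one]; exact_mod_cast h
    · exact one_ne_zero
  have h2 : addOrderOf (1 : F) ∣ Fintype.card F := addOrderOf_dvd_card
  rw [h1] at h2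
  obtain ⟨k, hk⟩ := hq
  omega

/-- `Cfsg.quadFormPlus` as a quadratic form. -/
noncomputable def plusQ' (m : ℕ) (F : Type*) [Field F] : QuadraticForm F (Fin m ⊕ Fin m → F) :=
  (∑ i : Fin m, QuadraticMap.proj (R := F) (Sum.inl i) (Sum.inr i)).copy
    (Cfsg.quadFormPlus m F)
    (by funext v; simp [Cfsg.quadFormPlus])

theorem core {F : Type*} [Field F] (h2 : (2 : F) ≠ 0) {W : Type*} [AddCommGroup W] [Module F W]
    [FiniteDimensional F W] (B : LinearMap.BilinForm F W) (N : W →ₗ[F] W)
    (hsymm : ∀ u v, B u v = B v u)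
    (hnd : ∀ u, (∀ v, B u v = 0) → u = 0)
    (hadj : ∀ u v, B (N u) v + B u (N v) + B (N u) (N v) = 0)
    (hN3 : ∀ v, N (N (N v)) = 0)
    (hker : ∀ u k, N u = 0 → N k = 0 → B u k = 0)
    (hr2 : Module.finrank F (LinearMap.range (N ∘ₗ N)) ≤ 2)
    (hodd : Odd (Module.finrank F W)) : Module.finrank F W % 4 = 3 := by
  classical
  have hBN2 : ∀ u, B (N (N u)) (N (N u)) = 0 := by
    intro u
    have e := hadj (N (N u)) (N u)
    rw [hN3] at e
    simpa using e
  have hBN21 : ∀ u, B (N (N u)) (N u) = 0 := by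
    intro u
    have e := hadj (N u) (N u)
    rw [hBN2, hsymm (N u) (N (N u))] at e
    have h3 : (2 : F) * B (N (N u)) (N u) = 0 := by linear_combination e
    exact (mul_eq_zero.mp h3).resolve_left h2
  obtain ⟨A, hA⟩ : ∃ A : W →ₗ[F] W, ∀ u, A u = (2 : F) • N u - N (N u) :=
    ⟨(2 : F) • N - N ∘ₗ N, fun u => rfl⟩
  have halt : ∀ u, B (A u) u = 0 := by
    intro u
    have e1 := hadj u u
    have e2 := hadj (N u) u
    rw [hBN21] at e2
    rw [hsymm u (N u)] at e1
    rw [hA, map_sub, LinearMap.sub_apply, map_smul, LinearMap.smul_apply, smul_eq_mul]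
    linear_combination e1 - e2
  have hskew : ∀ u v, B (A u) v = - B (A v) u := by
    intro u v
    have e := halt (u + v)
    simp only [map_add, LinearMap.add_apply, halt u, halt v] at e
    linear_combination e
  obtain ⟨C, hC⟩ := Submodule.exists_isCompl (LinearMap.ker A)
  have hCdim : Module.finrank F C = Module.finrank F (LinearMap.range A) := by
    have h1 := Submodule.finrank_add_eq_of_isCompl hC
    have h3 := LinearMap.finrank_range_add_finrank_ker A
    omega
  have hCeven : Even (Module.finrank F C) := by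
    obtain ⟨β, hβ⟩ : ∃ β : LinearMap.BilinForm F C, ∀ x y : C, β x y = B (A x.1) y.1 :=
      ⟨B.compl₁₂ (A ∘ₗ C.subtype) C.subtype, fun x y => rfl⟩
    apply Cfsg.Agent.Lib.Helper40.AltRank.even_finrank_of_alt β
    · intro x
      rw [hβ]
      exact halt x.1
    · intro u hu
      have h1 : ∀ v : W, B (A u.1) v = 0 := by
        intro v
        have hv : v ∈ LinearMap.ker A ⊔ C := by
          rw [hC.sup_eq_top]
          exact Submodule.mem_top
        obtain ⟨k, hk, c, hc, rfl⟩ := Submodule.mem_sup.mp hv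
        have hk' : A k = 0 := hk
        have h3 := hu ⟨c, hc⟩
        rw [hβ] at h3
        rw [map_add, hskew u.1 k, hk', map_zero, LinearMap.zero_apply, neg_zero, zero_add]
        exact h3
      have h3 : A u.1 = 0 := hnd _ h1
      have h4 : u.1 ∈ LinearMap.ker A ⊓ C := ⟨h3, u.2⟩
      rw [hC.inf_eq_bot] at h4
      exact Subtype.ext h4
  have hrange : LinearMap.range A = LinearMap.range N := by
    obtain ⟨T, hT⟩ : ∃ T : W →ₗ[F] W, ∀ u, T u = (2 : F) • u - N u :=
      ⟨(2 : F) • LinearMap.id - N, fun u => rfl⟩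
    have hAT : A = N ∘ₗ T := by
      ext u
      rw [hA, LinearMap.comp_apply, hT, map_sub, map_smul]
    have h8 : (8 : F) ≠ 0 := by
      have h9 : (8 : F) = 2 * 2 * 2 := by norm_num
      rw [h9]
      exact mul_ne_zero (mul_ne_zero h2 h2) h2
    have hTS : ∀ v, T ((4 : F) • v + (2 : F) • N v + N (N v)) = (8 : F) • v := by
      intro v
      rw [hT]
      simp only [map_smul, map_add, hN3]
      module
    have hTsurj : LinearMap.range T = ⊤ := by
      rw [LinearMap.range_eq_top]
      intro w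
      refine ⟨(4 : F) • ((8 : F)⁻¹ • w) + (2 : F) • N ((8 : F)⁻¹ • w) +
        N (N ((8 : F)⁻¹ • w)), ?_⟩
      rw [hTS, smul_smul, mul_inv_cancel₀ h8, one_smul]
    rw [hAT, LinearMap.range_comp_of_range_eq_top _ hTsurj]
  have heven : Even (Module.finrank F (LinearMap.range N)) := by
    rw [← hrange, ← hCdim]
    exact hCeven
  have hBnd : B.Nondegenerate :=
    ⟨fun u hu => hnd u hu, fun v hv => hnd v (fun u => by rw [hsymm]; exact hv u)⟩
  have hrn := LinearMap.finrank_range_add_finrank_ker N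
  have hkr : LinearMap.ker N ≤ LinearMap.range N := by
    have hle : LinearMap.range N ≤ B.orthogonal (LinearMap.ker N) := by
      rintro _ ⟨v, rfl⟩
      rw [LinearMap.BilinForm.mem_orthogonal_iff]
      intro k hk
      have hk' : N k = 0 := hk
      have e := hadj k v
      rw [hk'] at e
      simpa using e
    have hdim : Module.finrank F (B.orthogonal (LinearMap.ker N)) =
        Module.finrank F (LinearMap.range N) := by
      rw [LinearMap.BilinForm.finrank_orthogonal hBnd]
      omega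
    have heq : LinearMap.range N = B.orthogonal (LinearMap.ker N) :=
      Submodule.eq_of_le_of_finrank_eq hle hdim.symm
    rw [heq]
    intro u hu
    rw [LinearMap.BilinForm.mem_orthogonal_iff]
    intro k hk
    exact hker k u hk hu
  have hcount : Module.finrank F (LinearMap.range (N ∘ₗ N)) +
      Module.finrank F (LinearMap.ker N) = Module.finrank F (LinearMap.range N) := by
    have h1 := LinearMap.finrank_range_add_finrank_ker (N.domRestrict (LinearMap.range N))
    have h3 : LinearMap.range (N.domRestrict (LinearMap.range N)) =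
        LinearMap.range (N ∘ₗ N) := by
      ext w
      constructor
      · rintro ⟨⟨_, ⟨v, rfl⟩⟩, rfl⟩
        exact ⟨v, rfl⟩
      · rintro ⟨v, rfl⟩
        exact ⟨⟨N v, ⟨v, rfl⟩⟩, rfl⟩
    have h4 : Module.finrank F (LinearMap.ker (N.domRestrict (LinearMap.range N))) =
        Module.finrank F (LinearMap.ker N) := by
      have h5 : (LinearMap.ker (N.domRestrict (LinearMap.range N))).map
          (LinearMap.range N).subtype = LinearMap.ker N := by
        ext w
        constructor
        · rintro ⟨⟨w', hw'⟩, hk, rfl⟩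
          exact hk
        · intro hw
          exact ⟨⟨w, hkr hw⟩, hw, rfl⟩
      rw [← h5, Submodule.finrank_map_subtype_eq]
    rw [h3, h4] at h1
    exact h1
  obtain ⟨t, ht⟩ := heven
  obtain ⟨s, hs⟩ := hodd
  omega

theorem main : PFixB.{u} := by
  intro F _ _ hq d m hm x hx hfix hN3 hr2 W hWm hWnd hWst
  classical
  have h2 : (2 : F) ≠ 0 := two_ne_zero_of_odd hq
  obtain ⟨BV, hBV⟩ : ∃ BV : LinearMap.BilinForm F (P d → F),
      ∀ u v, BV u v = QuadraticMap.polar (Cfsg.quadFormPlus d F) u v :=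
    ⟨QuadraticMap.polarBilin (plusQ' d F), fun u v => rfl⟩
  obtain ⟨NV, hNV⟩ : ∃ NV : (P d → F) →ₗ[F] (P d → F),
      NV = NP (x : Matrix (P d) (P d) F) := ⟨_, rfl⟩
  rw [← hNV] at hfix hN3 hr2
  have hNVapp : ∀ v, NV v = (x : Matrix (P d) (P d) F) *ᵥ v - v := by
    intro v
    rw [hNV]
    unfold NP
    rw [LinearMap.sub_apply, Matrix.toLin'_apply, LinearMap.id_apply]
  have hQ : ∀ v, Cfsg.quadFormPlus d F ((x : Matrix (P d) (P d) F) *ᵥ v) =
      Cfsg.quadFormPlus d F v := fun v => hx v v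
  have hiso : ∀ u v, BV ((x : Matrix (P d) (P d) F) *ᵥ u) ((x : Matrix (P d) (P d) F) *ᵥ v) =
      BV u v := by
    intro u v
    rw [hBV, hBV]
    unfold QuadraticMap.polar
    rw [← Matrix.mulVec_add, hQ, hQ, hQ]
  have hadjV : ∀ u v, BV (NV u) v + BV u (NV v) + BV (NV u) (NV v) = 0 := by
    intro u v
    have e := hiso u v
    have e1 : (x : Matrix (P d) (P d) F) *ᵥ u = u + NV u := by rw [hNVapp]; abel
    have e2 : (x : Matrix (P d) (P d) F) *ᵥ v = v + NV v := by rw [hNVapp]; abel
    rw [e1, e2] at e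
    simp only [map_add, LinearMap.add_apply] at e
    linear_combination e
  have hNW : ∀ w ∈ W, NV w ∈ W := by
    intro w hw
    rw [hNVapp]
    refine W.sub_mem (hWst ?_) hw
    exact ⟨w, hw, Matrix.toLin'_apply _ _⟩
  obtain ⟨N, hN⟩ : ∃ N : W →ₗ[F] W, ∀ w : W, (N w : P d → F) = NV w.1 :=
    ⟨NV.restrict hNW, fun w => rfl⟩
  obtain ⟨B, hB⟩ : ∃ B : LinearMap.BilinForm F W, ∀ u v : W, B u v = BV u.1 v.1 :=
    ⟨BV.restrict W, fun u v => rfl⟩
  have key := core h2 B N ?_ ?_ ?_ ?_ ?_ ?_ ?_
  · rw [hWm] at key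
    exact key
  · intro u v
    rw [hB, hB, hBV, hBV, QuadraticMap.polar_comm]
  · intro u hu
    by_contra hne
    have hne' : (u : P d → F) ≠ 0 := fun h => hne (Subtype.ext h)
    obtain ⟨-, ⟨y, hy, hy2⟩⟩ := hWnd u.1 u.2 hne'
    apply hy2
    have h3 := hu ⟨y, hy⟩
    rw [hB, hBV] at h3
    exact h3
  · intro u v
    rw [hB, hB, hB, hN, hN]
    exact hadjV u.1 v.1
  · intro v
    apply Subtype.ext
    rw [hN, hN, hN]
    exact hN3 v.1
  · intro u k hu hk
    have hu' : NV u.1 = 0 := by rw [← hN, hu]; rfl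
    have hk' : NV k.1 = 0 := by rw [← hN, hk]; rfl
    have hufix : u.1 ∈ FxP (x : Matrix (P d) (P d) F) := by
      rw [mem_FxP]
      have h3 := hNVapp u.1
      rw [hu'] at h3
      exact sub_eq_zero.mp h3.symm
    obtain ⟨v, hv⟩ := hfix hufix
    rw [hB, ← hv]
    have e := hadjV v k.1
    rw [hk'] at e
    simpa using e
  · have hle : (LinearMap.range (N ∘ₗ N)).map W.subtype ≤ LinearMap.range (NV ∘ₗ NV) := by
      rintro _ ⟨_, ⟨v, rfl⟩, rfl⟩
      refine ⟨v.1, ?_⟩
      simp only [LinearMap.comp_apply, Submodule.subtype_apply, hN]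
    have h1 := Submodule.finrank_mono hle
    rw [Submodule.finrank_map_subtype_eq] at h1
    exact h1.trans hr2
  · rw [hWm]
    exact hm

end Cfsg.Agent.Lib.Helper13.OPPFIXB
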