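import Mathlib
import Cfsg.Prelude.Def_Blocks
import Cfsg.Agent.Lib.CT.Wedderburn
import Cfsg.Agent.Lib.Helper80.DefOneLoc
import Cfsg.Agent.Lib.Helper81.BrT2
import Cfsg.Agent.Lib.Helper76.BrRBStmt

/-!
# S4504, piece INJ: the members of `S` have distinct restrictions to `P`
-/

set_option autoImplicit false
set_option linter.style.haveILetI false

namespace Cfsg.Agent.Lib.Helper13.BrRBINJ

open Cfsg Cfsg.Agent.Lib.CT Cfsg.Agent.Lib.CT.Wedderburn
open Cfsg.Agent.Lib.Helper76.BrRB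
open scoped ComplexConjugate

universe u

theorem main : INJ.{u} := by
  intro L _ _ p _ c S ψ₀ hO hNC μ hμ μ' hμ' hag
  classical
  obtain ⟨hψ₀, hcard, hsum, hconj⟩ := hO
  have hp : p.Prime := Fact.out
  have hPC : (c.P : Subgroup L) ≤ Subgroup.centralizer ((c.P : Subgroup L) : Set L) :=
    fun x hx => Cfsg.Agent.Lib.Helper80.DefOneLoc.le_centralizer c.P c.hP hx
  let ι : ↥(c.P : Subgroup L) →* ↥(Subgroup.centralizer ((c.P : Subgroup L) : Set L)) :=
    Subgroup.inclusion hPC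
  let r : (↥(Subgroup.centralizer ((c.P : Subgroup L) : Set L)) →* ℂˣ) →
      (↥(c.P : Subgroup L) →* ℂˣ) := fun ν => ν.comp ι
  let I : (↥(c.P : Subgroup L) →* ℂˣ) → ℂ := fun ψ =>
    ∑ u : ↥(c.P : Subgroup L), c.ξ (u : L) * conj ((ψ u : ℂˣ) : ℂ)
  have hI : ∀ ψ, I ψ = (Fintype.card ↥(c.P : Subgroup L) : ℂ) *
      ((S.filter (fun ν => r ν = ψ)).card : ℂ) := by
    intro ψ
    have h1 : ∀ u : ↥(c.P : Subgroup L), c.ξ (u : L) * conj ((ψ u : ℂˣ) : ℂ) =
        ∑ ν ∈ S, ((r ν u : ℂˣ) : ℂ) * conj ((ψ u : ℂˣ) : ℂ) := by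
      intro u
      have h := hsum (ι u)
      rw [← Finset.sum_mul]
      congr 1
    show ∑ u : ↥(c.P : Subgroup L), c.ξ (u : L) * conj ((ψ u : ℂˣ) : ℂ) = _
    simp_rw [h1]
    rw [Finset.sum_comm]
    simp_rw [Cfsg.Agent.Lib.Helper81.BrT2.orth_lin]
    rw [Finset.sum_ite, Finset.sum_const, Finset.sum_const_zero, add_zero, nsmul_eq_mul,
      mul_comm]
  let κ : ↥(Subgroup.normalizer ((c.P : Subgroup L) : Set L)) →
      (↥(c.P : Subgroup L) →* ↥(c.P : Subgroup L)) := fun n =>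
    { toFun := fun u => ⟨(n : L) * u * (n : L)⁻¹,
        (Subgroup.mem_set_normalizer_iff.mp n.2 u).mp u.2⟩
      map_one' := by ext; simp
      map_mul' := by intro a b; ext; simp [mul_assoc] }
  have hκval : ∀ n u, ((κ n u : ↥(c.P : Subgroup L)) : L) = (n : L) * u * (n : L)⁻¹ :=
    fun n u => rfl
  have hκbij : ∀ n, Function.Bijective (κ n) := by
    intro n
    refine (Finite.injective_iff_bijective).mp ?_
    intro a b hab
    have h := congrArg Subtype.val hab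
    rw [hκval, hκval] at h
    ext
    simpa using h
  have hIκ : ∀ (ψ : ↥(c.P : Subgroup L) →* ℂˣ) n, I (ψ.comp (κ n)) = I ψ := by
    intro ψ n
    show ∑ u : ↥(c.P : Subgroup L), c.ξ (u : L) * conj ((ψ (κ n u) : ℂˣ) : ℂ) =
      ∑ u : ↥(c.P : Subgroup L), c.ξ (u : L) * conj ((ψ u : ℂˣ) : ℂ)
    have hcl := char_isClassFunction (isCharacter_of_irr c.hξ)
    rw [← (Equiv.ofBijective _ (hκbij n)).sum_comp
      (fun u : ↥(c.P : Subgroup L) => c.ξ (u : L) * conj ((ψ u : ℂˣ) : ℂ))]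
    refine Finset.sum_congr rfl (fun u _ => ?_)
    show _ = c.ξ ((n : L) * u * (n : L)⁻¹) * _
    rw [hcl]
    rfl
  have hT : ∀ ψ, (∃ ν ∈ S, r ν = ψ) ↔ I ψ ≠ 0 := by
    intro ψ
    rw [hI]
    constructor
    · rintro ⟨ν, hν, rfl⟩
      refine mul_ne_zero (Nat.cast_ne_zero.mpr Fintype.card_ne_zero) (Nat.cast_ne_zero.mpr ?_)
      exact Finset.card_ne_zero.mpr ⟨ν, Finset.mem_filter.mpr ⟨hν, rfl⟩⟩
    · intro h
      have h2 : (S.filter (fun ν => r ν = ψ)).card ≠ 0 := by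
        intro h0; apply h; rw [h0]; simp
      obtain ⟨ν, hν⟩ := Finset.card_ne_zero.mp h2
      exact ⟨ν, (Finset.mem_filter.mp hν).1, (Finset.mem_filter.mp hν).2⟩
  have hSne : S.Nonempty := by
    rw [← Finset.card_pos, hcard]
    have h1 := c.hdeg
    have h2 := c.hp5
    omega
  obtain ⟨μ₁, hμ₁⟩ := hSne
  obtain ⟨n₁, hn₁, hn₁'⟩ := hconj μ₁ hμ₁
  have hrμ₁ : r μ₁ = ψ₀.comp (κ ⟨n₁, hn₁⟩) := by
    ext u
    have h := hn₁' u (κ ⟨n₁, hn₁⟩ u) (ι u) rfl rfl
    show ((μ₁ (ι u) : ℂˣ) : ℂ) = ((ψ₀ (κ ⟨n₁, hn₁⟩ u) : ℂˣ) : ℂ)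
    rw [h]
  have htw : ∀ n, ∃ ν ∈ S, r ν = ψ₀.comp (κ n) := by
    intro n
    rw [hT]
    have h1 : ψ₀.comp (κ n) = (ψ₀.comp (κ ⟨n₁, hn₁⟩)).comp (κ (⟨n₁, hn₁⟩⁻¹ * n)) := by
      ext u
      show ((ψ₀ (κ n u) : ℂˣ) : ℂ) =
        ((ψ₀ (κ ⟨n₁, hn₁⟩ (κ (⟨n₁, hn₁⟩⁻¹ * n) u)) : ℂˣ) : ℂ)
      have h2 : κ n u = κ ⟨n₁, hn₁⟩ (κ (⟨n₁, hn₁⟩⁻¹ * n) u) := by
        apply Subtype.ext
        rw [hκval, hκval, hκval]
        simp only [Subgroup.coe_mul, Subgroup.coe_inv]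
        group
      rw [h2]
    rw [h1, hIκ, ← hT]
    exact ⟨μ₁, hμ₁, hrμ₁⟩
  have hψinj : Function.Injective ψ₀ := by
    rw [← MonoidHom.ker_eq_bot_iff]
    have hcardP : Nat.card ↥(c.P : Subgroup L) = p := c.hP
    have : Fact (Nat.card ↥(c.P : Subgroup L)).Prime := ⟨by rw [hcardP]; exact hp⟩
    rcases Subgroup.eq_bot_or_eq_top_of_prime_card ψ₀.ker with h | h
    · exact h
    · exfalso
      apply hψ₀
      ext u
      have hu : u ∈ ψ₀.ker := by rw [h]; trivial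
      rw [MonoidHom.mem_ker] at hu
      rw [hu]
      rfl
  have hQ : Nat.card (↥(Subgroup.normalizer ((c.P : Subgroup L) : Set L)) ⧸
      (Subgroup.centralizer ((c.P : Subgroup L) : Set L)).subgroupOf
        (Subgroup.normalizer ((c.P : Subgroup L) : Set L))) = charDegree c.ξ := hNC
  let g : (↥(Subgroup.normalizer ((c.P : Subgroup L) : Set L)) ⧸
      (Subgroup.centralizer ((c.P : Subgroup L) : Set L)).subgroupOf
        (Subgroup.normalizer ((c.P : Subgroup L) : Set L))) → (↥(c.P : Subgroup L) →* ℂˣ) :=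
    fun q => ψ₀.comp (κ q.out)
  have hginj : Function.Injective g := by
    intro q q' h
    have h2 : ∀ u : ↥(c.P : Subgroup L), κ q.out u = κ q'.out u :=
      fun u => hψinj (DFunLike.congr_fun h u)
    have h3 : (q.out)⁻¹ * q'.out ∈ (Subgroup.centralizer ((c.P : Subgroup L) : Set L)).subgroupOf
        (Subgroup.normalizer ((c.P : Subgroup L) : Set L)) := by
      rw [Subgroup.mem_subgroupOf, Subgroup.mem_centralizer_iff]
      intro u hu
      have h4 := congrArg Subtype.val (h2 ⟨u, hu⟩)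
      rw [hκval, hκval] at h4
      simp only [Subgroup.coe_mul, Subgroup.coe_inv]
      have h5 : u = (q.out : L)⁻¹ * ((q'.out : L) * u * (q'.out : L)⁻¹) * (q.out : L) := by
        rw [← h4]; group
      calc u * ((q.out : L)⁻¹ * (q'.out : L))
          = (q.out : L)⁻¹ * ((q'.out : L) * u * (q'.out : L)⁻¹) * (q.out : L) *
              ((q.out : L)⁻¹ * (q'.out : L)) := by rw [← h5]
        _ = (q.out : L)⁻¹ * (q'.out : L) * u := by group
    have h6 := QuotientGroup.eq.mpr h3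
    rw [QuotientGroup.out_eq', QuotientGroup.out_eq'] at h6
    exact h6
  have hle : charDegree c.ξ ≤ (S.image r).card := by
    rw [← hQ]
    have : Fintype (↥(Subgroup.normalizer ((c.P : Subgroup L) : Set L)) ⧸
      (Subgroup.centralizer ((c.P : Subgroup L) : Set L)).subgroupOf
        (Subgroup.normalizer ((c.P : Subgroup L) : Set L))) := Fintype.ofFinite _
    rw [Nat.card_eq_fintype_card, ← Finset.card_univ]
    refine Finset.card_le_card_of_injOn g ?_ (hginj.injOn)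
    intro q _
    obtain ⟨ν, hν, hrν⟩ := htw q.out
    exact Finset.mem_image.mpr ⟨ν, hν, hrν⟩
  have hcard' : (S.image r).card = S.card := by
    have h1 := Finset.card_image_le (s := S) (f := r)
    omega
  have hinj := Finset.card_image_iff.mp hcard'
  apply hinj hμ hμ'
  ext u
  show ((μ (ι u) : ℂˣ) : ℂ) = ((μ' (ι u) : ℂˣ) : ℂ)
  rw [hag (ι u) u.2]

end Cfsg.Agent.Lib.Helper13.BrRBINJ
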