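import Mathlib

set_option autoImplicit false

namespace Cfsg.Agent.Lib.Helper13.Gleason

universe u v

/-- If all orbits of `H` on an invariant set `S` have size divisible by `r`, so does `S`. -/
theorem orbdvd {H : Type*} [Group H] {Ω : Type*} [Finite Ω] [MulAction H Ω] (r : ℕ) :
    ∀ (n : ℕ) (S : Set Ω), S.ncard = n → (∀ h : H, ∀ x ∈ S, h • x ∈ S) →
      (∀ x ∈ S, r ∣ (MulAction.orbit H x).ncard) → r ∣ n := by
  intro n
  induction n using Nat.strong_induction_on with
  | _ n ih =>
    intro S hS hinv hdvd
    rcases S.eq_empty_or_nonempty with h0 | ⟨x, hx⟩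
    · rw [h0, Set.ncard_empty] at hS
      rw [← hS]
      exact dvd_zero r
    · have hO : MulAction.orbit H x ⊆ S := by
        rintro _ ⟨h, rfl⟩
        exact hinv h x hx
      have hOpos : 0 < (MulAction.orbit H x).ncard :=
        (Set.ncard_pos).2 ⟨x, MulAction.mem_orbit_self x⟩
      have hcard : (S \ MulAction.orbit H x).ncard = n - (MulAction.orbit H x).ncard := by
        rw [Set.ncard_sdiff hO, hS]
      have hle : (MulAction.orbit H x).ncard ≤ n := hS ▸ Set.ncard_le_ncard hO
      have h1 := ih (n - (MulAction.orbit H x).ncard) (by omega) (S \ MulAction.orbit H x) hcard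
        (by
          intro h y hy
          refine ⟨hinv h y hy.1, fun hmem => hy.2 ?_⟩
          have e1 := MulAction.orbit_eq_iff.2 hmem
          rw [MulAction.orbit_smul] at e1
          exact MulAction.orbit_eq_iff.1 e1)
        (fun y hy => hdvd y hy.1)
      have h2 : r ∣ (MulAction.orbit H x).ncard := hdvd x hx
      have h3 : n = (n - (MulAction.orbit H x).ncard) + (MulAction.orbit H x).ncard := by omega
      rw [h3]
      exact dvd_add h1 h2

/-- Gleason's lemma, generalised: if every point `a` is fixed by a subgroup all of whose orbits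
on the other points have size divisible by a fixed `r > 1`, then the action is transitive. -/
theorem base (r : ℕ) (hr : 1 < r) {G : Type*} [Group G] {Ω : Type*} [Finite Ω] [MulAction G Ω]
    (h : ∀ a : Ω, ∃ H : Subgroup G, (∀ h ∈ H, h • a = a) ∧
      ∀ x, x ≠ a → r ∣ (MulAction.orbit H x).ncard) :
    MulAction.IsPretransitive G Ω := by
  constructor
  intro a b
  by_contra hcon
  have hb : b ∉ MulAction.orbit G a := by
    rintro ⟨g, hg⟩
    exact hcon ⟨g, hg⟩
  obtain ⟨Ha, hHa, hHa'⟩ := h a
  obtain ⟨Hb, hHb, hHb'⟩ := h b
  have h1 : r ∣ (MulAction.orbit G a).ncard :=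
    orbdvd (H := Hb) r _ (MulAction.orbit G a) rfl
      (fun h x hx => MulAction.mem_orbit_of_mem_orbit (h : G) hx)
      (fun x hx => hHb' x (fun hxb => hb (hxb ▸ hx)))
  have h2 : r ∣ (MulAction.orbit G a \ {a}).ncard :=
    orbdvd (H := Ha) r _ (MulAction.orbit G a \ {a}) rfl
      (fun h x hx => ⟨MulAction.mem_orbit_of_mem_orbit (h : G) hx.1, fun hxa => hx.2 (by
        rw [Set.mem_singleton_iff] at hxa ⊢
        have e : (h : G) • x = (h : G) • a := by
          rw [hHa (h : G) h.2]
          exact hxa
        exact MulAction.injective (h : G) e)⟩)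
      (fun x hx => hHa' x hx.2)
  rw [Set.ncard_sdiff_singleton_of_mem (MulAction.mem_orbit_self a)] at h2
  have hpos : 0 < (MulAction.orbit G a).ncard :=
    (Set.ncard_pos).2 ⟨a, MulAction.mem_orbit_self a⟩
  have h3 : r ∣ (MulAction.orbit G a).ncard - ((MulAction.orbit G a).ncard - 1) :=
    Nat.dvd_sub h1 h2
  have h4 : (MulAction.orbit G a).ncard - ((MulAction.orbit G a).ncard - 1) = 1 := by omega
  rw [h4, Nat.dvd_one] at h3
  omega

/-- Multiple transitivity from a Gleason-type hypothesis on the pointwise stabilisers of
`j`-subsets. -/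
theorem multi (r : ℕ) (hr : 1 < r) (j : ℕ) (hj : 1 ≤ j) :
    ∀ (G : Type u) [Group G] (Ω : Type v) [Finite Ω] [MulAction G Ω], j < Nat.card Ω →
      (∀ s : Set Ω, s.ncard = j → ∃ H : Subgroup G, (∀ h ∈ H, ∀ y ∈ s, h • y = y) ∧
          ∀ x, x ∉ s → r ∣ (MulAction.orbit H x).ncard) →
      MulAction.IsMultiplyPretransitive G Ω j := by
  induction j, hj using Nat.le_induction with
  | base =>
    intro G _ Ω _ _ hcard h
    rw [MulAction.is_one_pretransitive_iff]
    apply base r hr
    intro a
    obtain ⟨H, h1, h2⟩ := h {a} (Set.ncard_singleton a)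
    exact ⟨H, fun h hh => h1 h hh a rfl, fun x hx => h2 x hx⟩
  | succ k hk ih =>
    intro G _ Ω _ _ hcard h
    have hstab : ∀ a : Ω, MulAction.IsMultiplyPretransitive (MulAction.stabilizer G a)
        (SubMulAction.ofStabilizer G a) k := by
      intro a
      apply ih
      · rw [SubMulAction.nat_card_ofStabilizer_eq]
        omega
      · intro s' hs'
        obtain ⟨H, hH1, hH2⟩ := h (insert a (Subtype.val '' s')) (by
          rw [Set.ncard_insert_of_notMem, Set.ncard_image_of_injective _ Subtype.val_injective,
            hs']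
          rintro ⟨y, -, hy⟩
          exact (SubMulAction.mem_ofStabilizer_iff G a).1 y.2 hy)
        have hHle : H ≤ MulAction.stabilizer G a := by
          intro g hg
          rw [MulAction.mem_stabilizer_iff]
          exact hH1 g hg a (Set.mem_insert _ _)
        refine ⟨H.subgroupOf (MulAction.stabilizer G a), ?_, ?_⟩
        · intro g hg y hy
          apply Subtype.ext
          exact hH1 g.1 hg y.1 (Set.mem_insert_of_mem _ ⟨y, hy, rfl⟩)
        · intro x hx
          have hx' : (x : Ω) ∉ insert a (Subtype.val '' s') := by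
            rintro (h3 | ⟨z, hz, h3⟩)
            · exact (SubMulAction.mem_ofStabilizer_iff G a).1 x.2 h3
            · exact hx ((Subtype.val_injective h3) ▸ hz)
          have himg : Subtype.val '' (MulAction.orbit (H.subgroupOf (MulAction.stabilizer G a)) x) =
              MulAction.orbit H (x : Ω) := by
            ext z
            constructor
            · rintro ⟨_, ⟨g, rfl⟩, rfl⟩
              exact ⟨⟨g.1.1, g.2⟩, rfl⟩
            · rintro ⟨g, rfl⟩
              exact ⟨_, ⟨⟨⟨g.1, hHle g.2⟩, g.2⟩, rfl⟩, rfl⟩
          rw [← Set.ncard_image_of_injective _ Subtype.val_injective, himg]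
          exact hH2 _ hx'
    haveI : MulAction.IsPretransitive G Ω := by
      constructor
      intro x y
      obtain ⟨a, hax, hay⟩ : ∃ a : Ω, a ≠ x ∧ a ≠ y := by
        by_contra hcon
        push Not at hcon
        have hle : Nat.card Ω ≤ 2 := by
          have hsub : (Set.univ : Set Ω) ⊆ {x, y} := by
            intro a _
            by_cases hax : a = x
            · left
              exact hax
            · right
              exact hcon a hax
          calc Nat.card Ω = (Set.univ : Set Ω).ncard := (Set.ncard_univ Ω).symm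
            _ ≤ ({x, y} : Set Ω).ncard := Set.ncard_le_ncard hsub
            _ ≤ ({y} : Set Ω).ncard + 1 := Set.ncard_insert_le x {y}
            _ = 2 := by rw [Set.ncard_singleton]
        omega
      haveI := hstab a
      haveI : MulAction.IsPretransitive (MulAction.stabilizer G a)
          (SubMulAction.ofStabilizer G a) := by
        rw [← MulAction.is_one_pretransitive_iff]
        exact MulAction.isMultiplyPretransitive_of_le hk
          (by rw [SubMulAction.nat_card_ofStabilizer_eq]; omega)
      obtain ⟨g, hg⟩ := MulAction.exists_smul_eq (MulAction.stabilizer G a)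
        (⟨x, (SubMulAction.mem_ofStabilizer_iff G a).2 hax.symm⟩ : SubMulAction.ofStabilizer G a)
        ⟨y, (SubMulAction.mem_ofStabilizer_iff G a).2 hay.symm⟩
      exact ⟨g.1, congrArg Subtype.val hg⟩
    obtain ⟨a⟩ : Nonempty Ω := by
      rw [← Finite.card_pos_iff]
      omega
    exact (SubMulAction.ofStabilizer.isMultiplyPretransitive (a := a)).2 (hstab a)

end Cfsg.Agent.Lib.Helper13.Gleason
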