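import Mathlib
import Cfsg.Agent.Lib.Helper43.TMTWOMINUSG
import Cfsg.Agent.Lib.Helper11.TPCANCEL

/-!
# Types of orthogonal sums, any quadratic form over a finite field, any characteristic

* `two_ell_gen` : `A ⊥ B`, both nondegenerate of even dimension `2e`, `2f`, neither containing a
  totally singular subspace of half its dimension: `A ⊔ B` contains a totally singular subspace of
  dimension `e + f` (relative version of `Helper43.TMTWOMINUSG.two_minus_all`: the subspace found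
  lies INSIDE `A ⊔ B`).
* `plus_sup_gen` : the sum of two totally singular halves.
(`Helper11.TPCANCEL.cancel_gen` is the third fact: plus ⊥ ? = plus forces plus.)
-/

set_option autoImplicit false

universe u

namespace Cfsg.Agent.Lib.Helper13.TwoEllGen

open Module QuadraticMap
open Cfsg.Agent.Lib.Helper44.QSpace

variable {F : Type*} [Field F] [Fintype F] {V : Type u} [AddCommGroup V] [Module F V]
  [FiniteDimensional F V]

omit [Fintype F] [FiniteDimensional F V] in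
theorem inf_eq_bot (Q : QuadraticForm F V) (A B : Submodule F V)
    (hA : ∀ a ∈ A, (∀ x ∈ A, polar Q x a = 0) → a = 0)
    (hAB : ∀ u ∈ A, ∀ v ∈ B, polar Q u v = 0) : A ⊓ B = ⊥ := by
  rw [eq_bot_iff]
  rintro x ⟨hxA, hxB⟩
  rw [Submodule.mem_bot]
  exact hA x hxA (fun y hy => hAB y hy x hxB)

theorem two_ell_gen (Q : QuadraticForm F V) (A B : Submodule F V)
    (hA : ∀ a ∈ A, (∀ x ∈ A, polar Q x a = 0) → a = 0)
    (hB : ∀ b ∈ B, (∀ x ∈ B, polar Q x b = 0) → b = 0)
    (hAB : ∀ u ∈ A, ∀ v ∈ B, polar Q u v = 0)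
    (e f : ℕ) (hAe : finrank F A = 2 * e) (hBf : finrank F B = 2 * f)
    (hnA : ¬ ∃ U : Submodule F V, U ≤ A ∧ (∀ u ∈ U, Q u = 0) ∧ finrank F U = e)
    (hnB : ¬ ∃ U : Submodule F V, U ≤ B ∧ (∀ u ∈ U, Q u = 0) ∧ finrank F U = f) :
    ∃ T : Submodule F V, T ≤ A ⊔ B ∧ (∀ u ∈ T, Q u = 0) ∧ finrank F T = e + f := by
  obtain ⟨Y, hY⟩ : ∃ Y : Submodule F V, Y = A ⊔ B := ⟨_, rfl⟩
  have hAY : A ≤ Y := hY ▸ le_sup_left
  have hBY : B ≤ Y := hY ▸ le_sup_right
  rw [← hY]
  have hinf : A ⊓ B = ⊥ := inf_eq_bot Q A B hA hAB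
  have hSepA : Sep (res (res Q Y) (A.comap Y.subtype)) := by
    intro x hx
    have h0 : ((x : ↥Y) : V) = 0 := by
      apply hA _ x.2
      intro a ha
      have := hx ⟨⟨a, hAY ha⟩, ha⟩
      rw [polar_res, polar_res] at this
      rw [polar_comm]
      exact this
    exact Subtype.ext (Subtype.ext h0)
  have hSepB : Sep (res (res Q Y) (B.comap Y.subtype)) := by
    intro x hx
    have h0 : ((x : ↥Y) : V) = 0 := by
      apply hB _ x.2
      intro a ha
      have := hx ⟨⟨a, hBY ha⟩, ha⟩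
      rw [polar_res, polar_res] at this
      rw [polar_comm]
      exact this
    exact Subtype.ext (Subtype.ext h0)
  have hAB' : ∀ u ∈ A.comap Y.subtype, ∀ v ∈ B.comap Y.subtype, polar (res Q Y) u v = 0 := by
    intro u hu v hv
    rw [polar_res]
    exact hAB _ hu _ hv
  have hinf' : A.comap Y.subtype ⊓ B.comap Y.subtype = ⊥ := by
    rw [eq_bot_iff]
    rintro x ⟨hxA, hxB⟩
    rw [Submodule.mem_bot]
    have : (x : V) ∈ A ⊓ B := ⟨hxA, hxB⟩
    rw [hinf, Submodule.mem_bot] at this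
    exact Subtype.ext this
  have hAe' : finrank F ↥(A.comap Y.subtype) = 2 * e := by
    rw [LinearEquiv.finrank_eq (Submodule.comapSubtypeEquivOfLe hAY), hAe]
  have hBf' : finrank F ↥(B.comap Y.subtype) = 2 * f := by
    rw [LinearEquiv.finrank_eq (Submodule.comapSubtypeEquivOfLe hBY), hBf]
  rcases Cfsg.Agent.Lib.Helper43.TMTWOMINUSG.two_minus_all (res Q Y) (A.comap Y.subtype)
      (B.comap Y.subtype) hSepA hSepB hAB' hinf' e f hAe' hBf' with
    ⟨U, hU, hUts, hUd⟩ | ⟨U, hU, hUts, hUd⟩ | ⟨T, hTts, hTd⟩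
  · exfalso
    apply hnA
    refine ⟨U.map Y.subtype, ?_, ?_, ?_⟩
    · rintro _ ⟨u, hu, rfl⟩
      exact hU hu
    · rintro _ ⟨u, hu, rfl⟩
      exact hUts u hu
    · rw [Submodule.finrank_map_subtype_eq]
      exact hUd
  · exfalso
    apply hnB
    refine ⟨U.map Y.subtype, ?_, ?_, ?_⟩
    · rintro _ ⟨u, hu, rfl⟩
      exact hU hu
    · rintro _ ⟨u, hu, rfl⟩
      exact hUts u hu
    · rw [Submodule.finrank_map_subtype_eq]
      exact hUd
  · refine ⟨T.map Y.subtype, ?_, ?_, ?_⟩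
    · rintro _ ⟨u, _, rfl⟩
      exact u.2
    · rintro _ ⟨u, hu, rfl⟩
      exact hTts u hu
    · rw [Submodule.finrank_map_subtype_eq]
      exact hTd

omit [Fintype F] in
theorem plus_sup_gen (Q : QuadraticForm F V) (A B : Submodule F V)
    (hinf : A ⊓ B = ⊥)
    (hAB : ∀ u ∈ A, ∀ v ∈ B, polar Q u v = 0)
    (TA : Submodule F V) (hTA : TA ≤ A) (hTAts : ∀ u ∈ TA, Q u = 0)
    (TB : Submodule F V) (hTB : TB ≤ B) (hTBts : ∀ u ∈ TB, Q u = 0) :
    ∃ T : Submodule F V, T ≤ A ⊔ B ∧ (∀ u ∈ T, Q u = 0) ∧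
      finrank F T = finrank F TA + finrank F TB := by
  refine ⟨TA ⊔ TB, sup_le_sup hTA hTB, ?_, ?_⟩
  · intro w hw
    obtain ⟨u, hu, v, hv, rfl⟩ := Submodule.mem_sup.mp hw
    have h3 := hAB u (hTA hu) v (hTB hv)
    unfold QuadraticMap.polar at h3
    rw [hTAts u hu, hTBts v hv, sub_zero, sub_zero] at h3
    exact h3
  · have h := Submodule.finrank_sup_add_finrank_inf_eq TA TB
    have hbot : TA ⊓ TB = ⊥ := by
      apply le_bot_iff.mp
      rw [← hinf]
      exact inf_le_inf hTA hTB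
    rw [hbot, finrank_bot, add_zero] at h
    exact h

end Cfsg.Agent.Lib.Helper13.TwoEllGen
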