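import Mathlib
import Cfsg.Agent.Lib.Helper93.HPB1Stmt
import Cfsg.Agent.Lib.Helper13.TwoEllGen

/-!
# S5974 / B1H-MM (sub-call by helper93): the orthogonal sum of two nondegenerate even-dimensional
subspaces of the plus form, neither of plus type, is of plus type (wrapper of
`Helper13.TwoEllGen.two_ell_gen`).
-/

set_option autoImplicit false

universe u

namespace Cfsg.Agent.Lib.Helper13.HPB1MM

open Cfsg.Agent.Lib.Helper93.HPB1Stmt
open Cfsg.Agent.Lib.Helper94.OPStmt (P NDegP)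
open Cfsg.Agent.Lib.Helper45.EPStmt (PlusP)
open Module

theorem main : MMH.{u} := by
  intro F _ _ d A B hA hB hAB hevA hevB hnA hnB
  obtain ⟨e, he⟩ := hevA
  obtain ⟨f, hf⟩ := hevB
  have hAe : finrank F ↥A = 2 * e := by omega
  have hBf : finrank F ↥B = 2 * f := by omega
  have hA' : ∀ a ∈ A, (∀ x ∈ A, QuadraticMap.polar
      (Cfsg.Agent.Lib.Helper44.NegPairs.plusQ d F) x a = 0) → a = 0 := by
    intro a ha h
    by_contra hne
    obtain ⟨⟨x, hx, hx'⟩, -⟩ := hA a ha hne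
    exact hx' (h x hx)
  have hB' : ∀ b ∈ B, (∀ x ∈ B, QuadraticMap.polar
      (Cfsg.Agent.Lib.Helper44.NegPairs.plusQ d F) x b = 0) → b = 0 := by
    intro b hb h
    by_contra hne
    obtain ⟨⟨x, hx, hx'⟩, -⟩ := hB b hb hne
    exact hx' (h x hx)
  have hinf : A ⊓ B = ⊥ :=
    Cfsg.Agent.Lib.Helper13.TwoEllGen.inf_eq_bot (Cfsg.Agent.Lib.Helper44.NegPairs.plusQ d F)
      A B hA' hAB
  obtain ⟨T, hT, hTts, hTd⟩ := Cfsg.Agent.Lib.Helper13.TwoEllGen.two_ell_gen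
    (Cfsg.Agent.Lib.Helper44.NegPairs.plusQ d F) A B hA' hB' hAB e f hAe hBf
    (by
      rintro ⟨U, hU, hUts, hUd⟩
      exact hnA ⟨U, hU, hUts, by rw [hUd, hAe]⟩)
    (by
      rintro ⟨U, hU, hUts, hUd⟩
      exact hnB ⟨U, hU, hUts, by rw [hUd, hBf]⟩)
  refine ⟨T, hT, hTts, ?_⟩
  have h := Submodule.finrank_sup_add_finrank_inf_eq A B
  rw [hinf, finrank_bot, add_zero] at h
  rw [hTd, h, hAe, hBf]
  ring

end Cfsg.Agent.Lib.Helper13.HPB1MM
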