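import Mathlib
import Cfsg.Agent.Lib.Helper96.HallSymStmt

/-!
# S2536, piece SSC: nested invariant subsets `Δ'' ⊆ Δ'`: no prime of `π` divides
`C(|Δ'|, |Δ''|)`
-/

set_option autoImplicit false

namespace Cfsg.Agent.Lib.Helper13.HSSSC

open Equiv Cfsg.Agent.Lib.Helper96.HallSymStmt

theorem main : Cfsg.Agent.Lib.Helper96.HallSymStmt.SSC' := by
  intro hSSA hSSB Ω _ _ π H hH Δ' Δ'' hΔ' hΔ'' hsub p hp hpπ hdvd
  classical
  obtain ⟨H', hH', -, h2⟩ := hSSB Ω π H hH Δ' hΔ'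
  have hE : InvS H' ({x | (x : Ω) ∈ Δ''} : Set ↥Δ') := by
    intro h' hh' x hx
    obtain ⟨h, hh, hc⟩ := h2 h' hh'
    show ((h' x : ↥Δ') : Ω) ∈ Δ''
    rw [hc x]
    exact hΔ'' h hh _ hx
  have h3 := hSSA ↥Δ' π H' hH' ({x | (x : Ω) ∈ Δ''} : Set ↥Δ') hE p hp hpπ
  apply h3
  have e1 : Fintype.card ↥Δ' = Δ'.ncard := by
    rw [← Nat.card_eq_fintype_card, Nat.card_coe_set_eq]
  have e2 : ({x | (x : Ω) ∈ Δ''} : Set ↥Δ').ncard = Δ''.ncard := by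
    have h4 : Subtype.val '' ({x | (x : Ω) ∈ Δ''} : Set ↥Δ') = Δ'' := by
      ext y
      constructor
      · rintro ⟨x, hx, rfl⟩; exact hx
      · intro hy; exact ⟨⟨y, hsub hy⟩, hy, rfl⟩
    rw [← h4, Set.ncard_image_of_injective _ Subtype.val_injective]
    rw [h4]
  rw [e1, e2]; exact hdvd

end Cfsg.Agent.Lib.Helper13.HSSSC
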