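import Mathlib
import Cfsg.Agent.Lib.Helper59.HTStmt

/-!
# S3371, piece AIDX: `C_G(a)` has index `2`; at most half of the elements outside are involutions
-/

set_option autoImplicit false

namespace Cfsg.Agent.Lib.Helper13.HTAIDX

open Cfsg.Agent.Lib.Helper59.HTStmt

universe v

theorem main : AIdx.{v} := by
  intro G _ _ a z hF hac
  classical
  have hC : ∀ g : G, g ∈ Subgroup.centralizer ({a} : Set G) ↔ g * a * g⁻¹ = a := by
    intro g
    rw [Subgroup.mem_centralizer_iff]
    constructor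
    · intro h
      have h1 := h a (Set.mem_singleton a)
      rw [← h1]; group
    · intro h b hb
      rw [Set.mem_singleton_iff] at hb
      subst hb
      exact (mul_inv_eq_iff_eq_mul.mp h).symm
  have hazne : a * z ≠ a := fun h => hF.z1 (by simpa using h)
  have hnC : ∀ g : G, g ∉ Subgroup.centralizer ({a} : Set G) ↔ g * a * g⁻¹ = a * z := by
    intro g
    rw [hC]
    constructor
    · intro h
      rcases hF.nrm g with h1 | h1
      · exact absurd h1 h
      · exact h1
    · intro h h1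
      exact hazne (h.symm.trans h1)
  obtain ⟨g₀, hg₀⟩ : ∃ g₀ : G, g₀ ∉ Subgroup.centralizer ({a} : Set G) := by
    by_contra hcon
    push Not at hcon
    apply hac
    rw [Subgroup.mem_center_iff]
    intro g
    have h1 := (hC g).mp (hcon g)
    exact mul_inv_eq_iff_eq_mul.mp h1
  have hzc := Subgroup.mem_center_iff.mp hF.zc
  have hidx : (Subgroup.centralizer ({a} : Set G)).index = 2 := by
    rw [Subgroup.index_eq_two_iff]
    refine ⟨g₀, fun b => ?_⟩
    by_cases hb : b ∈ Subgroup.centralizer ({a} : Set G)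
    · exact Or.inr ⟨hb, fun h => hg₀ ((Subgroup.mul_mem_cancel_left _ hb).mp h)⟩
    · refine Or.inl ⟨?_, hb⟩
      rw [hC]
      have h1 := (hnC b).mp hb
      have h2 := (hnC g₀).mp hg₀
      have h3 : b * z * b⁻¹ = z := by rw [hzc b]; group
      calc b * g₀ * a * (b * g₀)⁻¹ = b * (g₀ * a * g₀⁻¹) * b⁻¹ := by group
        _ = b * (a * z) * b⁻¹ := by rw [h2]
        _ = (b * a * b⁻¹) * (b * z * b⁻¹) := by group
        _ = a * z * z := by rw [h1, h3]
        _ = a := by rw [mul_assoc, hF.zz, mul_one]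
  have hcard : Nat.card G = 2 * Nat.card (Subgroup.centralizer ({a} : Set G)) := by
    rw [← (Subgroup.centralizer ({a} : Set G)).card_mul_index, hidx, mul_comm]
  refine ⟨hcard, ?_⟩
  have hmemC : ∀ g : G, g ∉ Subgroup.centralizer ({a} : Set G) →
      g₀⁻¹ * g ∈ Subgroup.centralizer ({a} : Set G) := by
    intro g hg
    rw [Subgroup.mul_mem_iff_of_index_two hidx, inv_mem_iff]
    simp [hg, hg₀]
  have haC : a ∈ Subgroup.centralizer ({a} : Set G) := by rw [hC]; group
  have hatn : ∀ t : {t : G // t * t = 1 ∧ t * a * t⁻¹ = a * z},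
      a * t.1 ∉ Subgroup.centralizer ({a} : Set G) := by
    intro t h
    have ht : t.1 ∉ Subgroup.centralizer ({a} : Set G) := (hnC t.1).mpr t.2.2
    exact ht ((Subgroup.mul_mem_cancel_left _ haC).mp h)
  have hsq : ∀ t : {t : G // t * t = 1 ∧ t * a * t⁻¹ = a * z}, (a * t.1) * (a * t.1) = z := by
    intro t
    have h1 := t.2.1
    have h2 := t.2.2
    calc a * t.1 * (a * t.1) = a * (t.1 * a * t.1⁻¹) * (t.1 * t.1) := by group
      _ = a * (a * z) * 1 := by rw [h2, h1]
      _ = z := by rw [mul_one, ← mul_assoc, hF.aa, one_mul]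
  let f : {t : G // t * t = 1 ∧ t * a * t⁻¹ = a * z} ⊕
      {t : G // t * t = 1 ∧ t * a * t⁻¹ = a * z} → Subgroup.centralizer ({a} : Set G) :=
    fun s => match s with
    | Sum.inl t => ⟨g₀⁻¹ * t.1, hmemC _ ((hnC t.1).mpr t.2.2)⟩
    | Sum.inr t => ⟨g₀⁻¹ * (a * t.1), hmemC _ (hatn t)⟩
  have hf : Function.Injective f := by
    rintro (t | t) (t' | t') h
    · have h1 : g₀⁻¹ * t.1 = g₀⁻¹ * t'.1 := congrArg Subtype.val h
      exact congrArg Sum.inl (Subtype.ext (mul_left_cancel h1))
    · exfalso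
      have h1 : g₀⁻¹ * t.1 = g₀⁻¹ * (a * t'.1) := congrArg Subtype.val h
      have h2 : t.1 = a * t'.1 := mul_left_cancel h1
      have h3 := hsq t'
      rw [← h2, t.2.1] at h3
      exact hF.z1 h3.symm
    · exfalso
      have h1 : g₀⁻¹ * (a * t.1) = g₀⁻¹ * t'.1 := congrArg Subtype.val h
      have h2 : a * t.1 = t'.1 := mul_left_cancel h1
      have h3 := hsq t
      rw [h2, t'.2.1] at h3
      exact hF.z1 h3.symm
    · have h1 : g₀⁻¹ * (a * t.1) = g₀⁻¹ * (a * t'.1) := congrArg Subtype.val h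
      exact congrArg Sum.inr (Subtype.ext (mul_left_cancel (mul_left_cancel h1)))
  have h5 := Nat.card_le_card_of_injective f hf
  rw [Nat.card_sum] at h5
  omega

end Cfsg.Agent.Lib.Helper13.HTAIDX
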