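import Mathlib
import Cfsg.Agent.Lib.Helper59.HTStmt

/-!
# S3371: groups with a cyclic subgroup `⟨a⟩` of order `2^(n+1)` and index `2`
(pieces QUAT, DIHCNT, SDCNT)
-/

set_option autoImplicit false

namespace Cfsg.Agent.Lib.Helper13.HTIdx2

open Cfsg.Agent.Lib.Helper59.HTStmt

universe v

section

variable {G : Type v} [Group G] [Finite G]

omit [Finite G] in
theorem index_two {a : G} {n : ℕ} (ha : orderOf a = 2 ^ (n + 1))
    (hG : Nat.card G = 2 ^ (n + 2)) : (Subgroup.zpowers a).index = 2 := by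
  have h1 := (Subgroup.zpowers a).card_mul_index
  rw [Nat.card_zpowers, ha, hG] at h1
  have h2 : 2 ^ (n + 1) * (Subgroup.zpowers a).index = 2 ^ (n + 1) * 2 := by rw [h1]; ring
  exact Nat.eq_of_mul_eq_mul_left (by positivity) h2

theorem coset_iff {a x : G} {n : ℕ} (ha : orderOf a = 2 ^ (n + 1))
    (hG : Nat.card G = 2 ^ (n + 2)) (hx : x ∉ Subgroup.zpowers a) (g : G) :
    g * x⁻¹ ∈ Subgroup.zpowers a ↔ g ∉ Subgroup.zpowers a := by
  rw [Subgroup.mul_mem_iff_of_index_two (index_two ha hG), inv_mem_iff]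
  simp [hx]

theorem dich {a x : G} {n : ℕ} (ha : orderOf a = 2 ^ (n + 1)) (hG : Nat.card G = 2 ^ (n + 2))
    (hx : x ∉ Subgroup.zpowers a) (g : G) :
    (∃ k : ℤ, g = a ^ k) ∨ (g ∉ Subgroup.zpowers a ∧ ∃ k : ℤ, g = a ^ k * x) := by
  by_cases hg : g ∈ Subgroup.zpowers a
  · obtain ⟨k, hk⟩ := Subgroup.mem_zpowers_iff.mp hg
    exact Or.inl ⟨k, hk.symm⟩
  · right
    refine ⟨hg, ?_⟩
    obtain ⟨k, hk⟩ := Subgroup.mem_zpowers_iff.mp ((coset_iff ha hG hx g).mpr hg)
    exact ⟨k, eq_mul_of_mul_inv_eq hk.symm⟩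

theorem mem_center_of {a x g : G} {n : ℕ} (ha : orderOf a = 2 ^ (n + 1))
    (hG : Nat.card G = 2 ^ (n + 2)) (hx : x ∉ Subgroup.zpowers a)
    (h1 : Commute a g) (h2 : Commute x g) : g ∈ Subgroup.center G := by
  rw [Subgroup.mem_center_iff]
  intro h
  rcases dich ha hG hx h with ⟨k, rfl⟩ | ⟨-, k, rfl⟩
  · exact (h1.zpow_left k).eq
  · exact ((h1.zpow_left k).mul_left h2).eq

omit [Finite G] in
theorem coset_sq (a x : G) (k : ℤ) :
    (a ^ k * x) * (a ^ k * x) = a ^ k * (x * a ^ k * x⁻¹) * (x * x) := by group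

omit [Finite G] in
theorem card_coset (K : Subgroup G) (x : G) : Nat.card {g : G // g * x⁻¹ ∈ K} = Nat.card K :=
  Nat.card_congr
    { toFun := fun g => ⟨g.1 * x⁻¹, g.2⟩
      invFun := fun k => ⟨k.1 * x, by simp⟩
      left_inv := fun g => by simp
      right_inv := fun k => by simp }

omit [Finite G] in
theorem z_sq {a : G} {n : ℕ} (ha : orderOf a = 2 ^ (n + 1)) :
    a ^ (2 ^ n) * a ^ (2 ^ n) = 1 := by
  rw [← pow_add, ← two_mul, ← pow_succ', ← ha, pow_orderOf_eq_one]

omit [Finite G] in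
theorem z_ne {a : G} {n : ℕ} (ha : orderOf a = 2 ^ (n + 1)) : a ^ (2 ^ n) ≠ 1 := by
  apply pow_ne_one_of_lt_orderOf (by positivity)
  rw [ha]; exact Nat.pow_lt_pow_right (by norm_num) (by omega)

end

theorem quat : QuatPow.{v} := by
  intro G _ _ a x n ha hG hx hxa hxx
  have hzz := z_sq ha
  have hxz : Commute x (a ^ (2 ^ n)) := by
    rw [← hxx]; exact (Commute.refl x).mul_right (Commute.refl x)
  have haz : Commute a (a ^ (2 ^ n)) := (Commute.refl a).pow_right _
  refine ⟨mem_center_of ha hG hx haz hxz, ?_⟩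
  intro g hg1
  rcases dich ha hG hx g with ⟨k, rfl⟩ | ⟨-, k, rfl⟩
  · have hmem : a ^ k ∈ Submonoid.powers a :=
      (mem_powers_iff_mem_zpowers).mpr (zpow_mem (Subgroup.mem_zpowers a) k)
    obtain ⟨i, hi⟩ := (Submonoid.mem_powers_iff _ _).mp hmem
    rw [← hi] at hg1 ⊢
    have hi0 : i ≠ 0 := by rintro rfl; exact hg1 (pow_zero a)
    obtain ⟨e, m, hm, rfl⟩ := Nat.exists_eq_two_pow_mul_odd hi0
    have he : e ≤ n := by
      by_contra hcon
      apply hg1
      have h1 : 2 ^ (n + 1) ∣ 2 ^ e * m := Dvd.dvd.mul_right (pow_dvd_pow 2 (by omega)) m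
      rw [← ha] at h1
      exact orderOf_dvd_iff_pow_eq_one.mp h1
    refine ⟨2 ^ (n - e), ?_⟩
    obtain ⟨j, rfl⟩ := hm
    rw [← pow_mul]
    have h2 : 2 ^ e * (2 * j + 1) * 2 ^ (n - e) = 2 ^ n * (2 * j + 1) := by
      have h3 : 2 ^ n = 2 ^ e * 2 ^ (n - e) := by rw [← pow_add]; congr 1; omega
      rw [h3]; ring
    rw [h2, pow_mul, pow_succ, pow_mul, pow_two, hzz, one_pow, one_mul]
  · refine ⟨2, ?_⟩
    rw [pow_two, coset_sq, ← conj_zpow, hxa, inv_zpow, mul_inv_cancel, one_mul, hxx]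

theorem dihcnt : DihCnt.{v} := by
  intro G _ _ a x n hn ha hG hx hxa hxx
  have key : ∀ g : G, (orderOf g = 2 ∧ g ∉ Subgroup.center G) ↔
      g * x⁻¹ ∈ Subgroup.zpowers a := by
    intro g
    rw [coset_iff ha hG hx]
    constructor
    · rintro ⟨ho, hnc⟩ hmem
      apply hnc
      obtain ⟨k, rfl⟩ := Subgroup.mem_zpowers_iff.mp hmem
      have hgg : a ^ k * a ^ k = 1 := by rw [← pow_two, ← ho, pow_orderOf_eq_one]
      apply mem_center_of ha hG hx ((Commute.refl a).zpow_right k)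
      have h1 : x * a ^ k * x⁻¹ = a ^ k := by
        rw [← conj_zpow, hxa, inv_zpow]; exact inv_eq_of_mul_eq_one_left hgg
      exact mul_inv_eq_iff_eq_mul.mp h1
    · intro hg
      rcases dich ha hG hx g with ⟨k, rfl⟩ | ⟨-, k, rfl⟩
      · exact absurd (zpow_mem (Subgroup.mem_zpowers a) k) hg
      · have hsq : (a ^ k * x) * (a ^ k * x) = 1 := by
          rw [coset_sq, ← conj_zpow, hxa, inv_zpow, mul_inv_cancel, one_mul, hxx]
        have hne : a ^ k * x ≠ 1 := fun h => hg (h ▸ one_mem _)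
        have : Fact (Nat.Prime 2) := ⟨Nat.prime_two⟩
        refine ⟨orderOf_eq_prime (by rw [pow_two]; exact hsq) hne, ?_⟩
        intro hc
        have h1 := (Subgroup.mem_center_iff.mp hc) a
        have h3 : a ^ k * (x * a) = a ^ k * (a * x) := by
          calc a ^ k * (x * a) = a ^ k * x * a := by group
            _ = a * (a ^ k * x) := h1.symm
            _ = a ^ k * (a * x) := by group
        have h2 : x * a = a * x := mul_left_cancel h3
        have h4 : x * a * x⁻¹ = a := by rw [h2]; group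
        rw [hxa] at h4
        have h5 : a ^ 2 = 1 := by
          rw [pow_two]; nth_rewrite 1 [← h4]; exact inv_mul_cancel a
        have h6 := orderOf_dvd_of_pow_eq_one h5
        rw [ha] at h6
        have h7 := Nat.le_of_dvd (by norm_num) h6
        have h8 : 2 ^ 2 ≤ 2 ^ (n + 1) := Nat.pow_le_pow_right (by norm_num) (by omega)
        omega
  rw [Nat.card_congr (Equiv.subtypeEquivRight key), card_coset, Nat.card_zpowers, ha]

theorem sdcnt : SdCnt.{v} := by
  intro G _ _ a x n hn ha hG hx hxa hxx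
  have hzz := z_sq ha
  have hz1 := z_ne ha
  have : Fact (Nat.Prime 2) := ⟨Nat.prime_two⟩
  have hoz : orderOf (a ^ (2 ^ n)) = 2 := orderOf_eq_prime (by rw [pow_two]; exact hzz) hz1
  have hconj : ∀ k : ℤ, x * a ^ k * x⁻¹ = (a ^ k)⁻¹ * (a ^ (2 ^ n)) ^ k := by
    intro k
    have hc : Commute a⁻¹ (a ^ (2 ^ n)) := ((Commute.refl a).pow_right _).inv_left
    rw [← conj_zpow, hxa, hc.mul_zpow k, inv_zpow]
  have hsq : ∀ k : ℤ, (a ^ k * x) * (a ^ k * x) = (a ^ (2 ^ n)) ^ k := by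
    intro k
    rw [coset_sq, hconj, hxx, mul_one, mul_inv_cancel_left]
  have hzk : ∀ k : ℤ, (a ^ (2 ^ n)) ^ k = 1 ↔ (2 : ℤ) ∣ k := by
    intro k
    rw [← orderOf_dvd_iff_zpow_eq_one, hoz]; norm_num
  have hxa_ne : x * a ≠ a * x := by
    intro hc
    have h4 : x * a * x⁻¹ = a := by rw [hc]; group
    rw [hxa] at h4
    have h5 : a ^ (2 ^ n) = a ^ 2 := by
      rw [pow_two]; nth_rewrite 2 [← h4]; group
    have hlt : 2 ^ n < 2 ^ (n + 1) := Nat.pow_lt_pow_right (by norm_num) (by omega)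
    have h4n : 2 ^ 2 ≤ 2 ^ n := Nat.pow_le_pow_right (by norm_num) hn
    have h6 := pow_injOn_Iio_orderOf (x := a) (by rw [ha]; exact hlt)
      (by rw [ha]; show 2 < 2 ^ (n + 1); omega) h5
    omega
  have key : ∀ g : G, (orderOf g = 2 ∧ g ∉ Subgroup.center G) ↔
      g * x⁻¹ ∈ Subgroup.zpowers (a ^ 2) := by
    intro g
    constructor
    · rintro ⟨ho, hnc⟩
      have hgg : g * g = 1 := by rw [← pow_two, ← ho, pow_orderOf_eq_one]
      rcases dich ha hG hx g with ⟨k, rfl⟩ | ⟨-, k, rfl⟩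
      · exfalso
        apply hnc
        apply mem_center_of ha hG hx ((Commute.refl a).zpow_right k)
        have h1 : a ^ (2 * k) = 1 := by rw [two_mul, zpow_add]; exact hgg
        have h2 : ((2 ^ (n + 1) : ℕ) : ℤ) ∣ 2 * k := by
          rw [← ha]; exact orderOf_dvd_iff_zpow_eq_one.mpr h1
        have h3 : (2 : ℤ) ∣ k := by
          push_cast at h2
          rw [pow_succ'] at h2
          have h2' : (2 : ℤ) ^ n ∣ k := (mul_dvd_mul_iff_left (two_ne_zero)).mp h2
          exact dvd_trans (dvd_pow_self 2 (by omega)) h2'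
        have h4 : x * a ^ k * x⁻¹ = a ^ k := by
          rw [hconj, (hzk k).mpr h3, mul_one]; exact inv_eq_of_mul_eq_one_left hgg
        exact mul_inv_eq_iff_eq_mul.mp h4
      · rw [hsq, hzk] at hgg
        obtain ⟨j, rfl⟩ := hgg
        rw [mul_inv_cancel_right, Subgroup.mem_zpowers_iff]
        exact ⟨j, by rw [← zpow_natCast, ← zpow_mul]; norm_num⟩
    · intro hg
      obtain ⟨j, hj⟩ := Subgroup.mem_zpowers_iff.mp hg
      have hge : g = a ^ (2 * j) * x := by
        have h0 : a ^ (2 * j) = (a ^ 2) ^ j := by rw [← zpow_natCast, ← zpow_mul]; norm_num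
        rw [h0, hj]; group
      subst hge
      have hs : (a ^ (2 * j) * x) * (a ^ (2 * j) * x) = 1 := by
        rw [hsq, hzk]; exact dvd_mul_right 2 j
      have hne : a ^ (2 * j) * x ≠ 1 := by
        intro h
        apply hx
        have h0 : x = (a ^ (2 * j))⁻¹ := eq_inv_of_mul_eq_one_right h
        rw [h0]; exact inv_mem (zpow_mem (Subgroup.mem_zpowers a) _)
      refine ⟨orderOf_eq_prime (by rw [pow_two]; exact hs) hne, ?_⟩
      intro hc
      apply hxa_ne
      have h1 := (Subgroup.mem_center_iff.mp hc) a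
      have h3 : a ^ (2 * j) * (x * a) = a ^ (2 * j) * (a * x) := by
        calc a ^ (2 * j) * (x * a) = a ^ (2 * j) * x * a := by group
          _ = a * (a ^ (2 * j) * x) := h1.symm
          _ = a ^ (2 * j) * (a * x) := by group
      exact mul_left_cancel h3
  rw [Nat.card_congr (Equiv.subtypeEquivRight key), card_coset, Nat.card_zpowers, orderOf_pow, ha]
  have hgcd : Nat.gcd (2 ^ (n + 1)) 2 = 2 := Nat.gcd_eq_right (dvd_pow_self 2 (by omega))
  rw [hgcd, pow_succ, Nat.mul_div_cancel _ (by norm_num)]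

end Cfsg.Agent.Lib.Helper13.HTIdx2
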