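import Mathlib
import Cfsg.Agent.Lib.Helper59.HTStmt
import Cfsg.Agent.Lib.Helper13.HTIdx2

/-!
# S3371, piece DIHCNT
-/

set_option autoImplicit false

namespace Cfsg.Agent.Lib.Helper13.HTDIHCNT

open Cfsg.Agent.Lib.Helper59.HTStmt

universe v

theorem main : DihCnt.{v} := Cfsg.Agent.Lib.Helper13.HTIdx2.dihcnt

end Cfsg.Agent.Lib.Helper13.HTDIHCNT
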