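import Mathlib
import Cfsg.Agent.Lib.Helper59.HTStmt

/-!
# S3371, piece FOUR: a normal four-group of a `2`-group is `{1, z, a, a z}` with `z` central
-/

set_option autoImplicit false

namespace Cfsg.Agent.Lib.Helper13.HTFOUR

open Cfsg.Agent.Lib.Helper59.HTStmt

universe v

/-- a normal subgroup of even order of a `2`-group contains a non-trivial central element. -/
theorem exists_central {G : Type v} [Group G] [Finite G] (hG : IsPGroup 2 G) (E : Subgroup G)
    [hE : E.Normal] (h2 : 2 ∣ Nat.card E) : ∃ z ∈ E, z ≠ 1 ∧ z ∈ Subgroup.center G := by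
  have : Fact (Nat.Prime 2) := ⟨Nat.prime_two⟩
  have hG' : IsPGroup 2 (ConjAct G) := hG.of_equiv ConjAct.toConjAct
  have h1 : (1 : E) ∈ MulAction.fixedPoints (ConjAct G) E := fun g => smul_one g
  obtain ⟨b, hb, hne⟩ :=
    hG'.exists_fixed_point_of_prime_dvd_card_of_fixed_point (α := E) h2 h1
  refine ⟨b.1, b.2, fun h => hne (Subtype.ext h.symm), ?_⟩
  rw [Subgroup.mem_center_iff]
  intro g
  have h3 := hb (ConjAct.toConjAct g)
  have h4 := congrArg Subtype.val h3
  rw [ConjAct.Subgroup.val_conj_smul, ConjAct.toConjAct_smul] at h4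
  exact mul_inv_eq_iff_eq_mul.mp h4

theorem main : FourEx.{v} := by
  intro G _ _ hG E hE hcard hexp
  classical
  have := hE
  obtain ⟨z, hzE, hz1, hzc⟩ := exists_central hG E (by rw [hcard]; norm_num)
  have hzz : z * z = 1 := by rw [← pow_two]; exact hexp z hzE
  obtain ⟨a, haE, ha1, haz⟩ : ∃ a ∈ E, a ≠ 1 ∧ a ≠ z := by
    by_contra hcon
    push Not at hcon
    have hle : Nat.card E ≤ 2 := by
      have hinj : Function.Injective (fun e : E => decide (e.1 = 1)) := by
        intro e1 e2 h
        simp only [decide_eq_decide] at h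
        by_cases h1 : e1.1 = 1
        · exact Subtype.ext (h1.trans (h.mp h1).symm)
        · have h2 : e2.1 ≠ 1 := fun h2 => h1 (h.mpr h2)
          exact Subtype.ext ((hcon _ e1.2 h1).trans (hcon _ e2.2 h2).symm)
      have h3 := Nat.card_le_card_of_injective _ hinj
      simpa using h3
    omega
  have haa : a * a = 1 := by rw [← pow_two]; exact hexp a haE
  -- the four elements are distinct
  have h1z : (1 : G) ≠ z := hz1.symm
  have h1a : (1 : G) ≠ a := ha1.symm
  have h1az : (1 : G) ≠ a * z := by
    intro h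
    apply haz
    calc a = a * (z * z) := by rw [hzz, mul_one]
      _ = a * z * z := (mul_assoc _ _ _).symm
      _ = z := by rw [← h, one_mul]
  have hza : z ≠ a := haz.symm
  have hzaz : z ≠ a * z := by
    intro h
    apply ha1
    have h' : 1 * z = a * z := by rw [one_mul]; exact h
    exact (mul_right_cancel h').symm
  have haaz : a ≠ a * z := by
    intro h
    apply hz1
    have h' : a * 1 = a * z := by rw [mul_one]; exact h
    exact (mul_left_cancel h').symm
  have hs4 : ({1, z, a, a * z} : Finset G).card = 4 := by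
    rw [Finset.card_insert_of_notMem (by simp [h1z, h1a, h1az]),
      Finset.card_insert_of_notMem (by simp [hza, hzaz]), Finset.card_pair haaz]
  have hsub : ((({1, z, a, a * z} : Finset G) : Set G)) ⊆ (E : Set G) := by
    intro b hb
    simp only [Finset.coe_insert, Finset.coe_singleton, Set.mem_insert_iff,
      Set.mem_singleton_iff] at hb
    rcases hb with rfl | rfl | rfl | rfl
    · exact E.one_mem
    · exact hzE
    · exact haE
    · exact E.mul_mem haE hzE
  have hEq : ((({1, z, a, a * z} : Finset G) : Set G)) = (E : Set G) := by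
    apply Set.eq_of_subset_of_ncard_le hsub _ (Set.toFinite _)
    rw [Set.ncard_coe_finset, hs4]
    have h5 : (E : Set G).ncard = Nat.card E := rfl
    rw [h5, hcard]
  have hmem : ∀ b ∈ E, b = 1 ∨ b = z ∨ b = a ∨ b = a * z := by
    intro b hb
    have hb' : b ∈ (E : Set G) := hb
    rw [← hEq] at hb'
    simpa using hb'
  refine ⟨a, z, ⟨hzc, hz1, hzz, ha1, haa, haz, ?_⟩⟩
  intro g
  have hgE : g * a * g⁻¹ ∈ E := hE.conj_mem a haE g
  have hback : a = g⁻¹ * (g * a * g⁻¹) * g := by group
  rcases hmem _ hgE with h | h | h | h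
  · exfalso
    apply ha1
    rw [hback, h]; group
  · exfalso
    apply haz
    have hc := (Subgroup.mem_center_iff.mp hzc) g
    rw [hback, h, mul_assoc, ← hc, inv_mul_cancel_left]
  · exact Or.inl h
  · exact Or.inr h

end Cfsg.Agent.Lib.Helper13.HTFOUR
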