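import Mathlib
import Cfsg.Agent.Lib.Helper59.HTStmt
import Cfsg.Agent.Lib.Helper59.HTSCAL
import Cfsg.Agent.Lib.Helper13.HTIdx2

/-!
# S3371, piece STAB2B: `⟨a⟩` cyclic normal of index `2`, `x ∉ ⟨a⟩` an involution:
all stabilizers of non-zero vectors have order `2`
-/

set_option autoImplicit false

namespace Cfsg.Agent.Lib.Helper13.HTSTAB2B

open Cfsg.Agent.Lib.Helper59.HTStmt Cfsg.Agent.Lib.Helper59 Cfsg.Agent.Lib.Helper13

universe u v

/-- every non-trivial element of `⟨a⟩` has a power equal to the involution `a ^ (2 ^ n)`. -/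
theorem pow_eq_z {G : Type v} [Group G] [Finite G] {a : G} {n : ℕ}
    (ha : orderOf a = 2 ^ (n + 1)) (k : ℤ) (hg1 : a ^ k ≠ 1) :
    ∃ m : ℕ, (a ^ k) ^ m = a ^ (2 ^ n) := by
  have hzz := HTIdx2.z_sq ha
  have hmem : a ^ k ∈ Submonoid.powers a :=
    (mem_powers_iff_mem_zpowers).mpr (zpow_mem (Subgroup.mem_zpowers a) k)
  obtain ⟨i, hi⟩ := (Submonoid.mem_powers_iff _ _).mp hmem
  rw [← hi] at hg1 ⊢
  have hi0 : i ≠ 0 := by rintro rfl; exact hg1 (pow_zero a)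
  obtain ⟨e, m, hm, rfl⟩ := Nat.exists_eq_two_pow_mul_odd hi0
  have he : e ≤ n := by
    by_contra hcon
    apply hg1
    have h1 : 2 ^ (n + 1) ∣ 2 ^ e * m := Dvd.dvd.mul_right (pow_dvd_pow 2 (by omega)) m
    rw [← ha] at h1
    exact orderOf_dvd_iff_pow_eq_one.mp h1
  refine ⟨2 ^ (n - e), ?_⟩
  obtain ⟨j, rfl⟩ := hm
  rw [← pow_mul]
  have h2 : 2 ^ e * (2 * j + 1) * 2 ^ (n - e) = 2 ^ n * (2 * j + 1) := by
    have h3 : 2 ^ n = 2 ^ e * 2 ^ (n - e) := by rw [← pow_add]; congr 1; omega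
    rw [h3]; ring
  rw [h2, pow_mul, pow_succ, pow_mul, pow_two, hzz, one_pow, one_mul]

theorem fix_pow {q : ℕ} [Fact q.Prime] {V : Type u} [AddCommGroup V] [Module (ZMod q) V]
    {G : Type v} [Group G] (ρ : G →* (V ≃ₗ[ZMod q] V)) {g : G} {v : V} (hg : ρ g v = v)
    (m : ℕ) : ρ (g ^ m) v = v := by
  induction m with
  | zero => rw [pow_zero]; exact HTSCAL.rho_one ρ v
  | succ m ih => rw [pow_succ, HTSCAL.rho_mul, hg, ih]

theorem main : Stab2B.{u, v} := by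
  intro q _ V _ _ _ _ G _ _ ρ hρ hES hZ a x n ha hG hx hxx hxa
  classical
  have hzz := HTIdx2.z_sq ha
  have hz1 := HTIdx2.z_ne ha
  have : Fact (Nat.Prime 2) := ⟨Nat.prime_two⟩
  have hoz : orderOf (a ^ (2 ^ n)) = 2 := orderOf_eq_prime (by rw [pow_two]; exact hzz) hz1
  -- `z` is central
  obtain ⟨j, hj⟩ := Subgroup.mem_zpowers_iff.mp hxa
  have hxz : x * a ^ (2 ^ n) * x⁻¹ = a ^ (2 ^ n) := by
    have h0 : (a ^ j) ^ (2 ^ n) = (a ^ (2 ^ n)) ^ j := by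
      calc (a ^ j) ^ (2 ^ n) = a ^ (j * ((2 ^ n : ℕ) : ℤ)) := by rw [zpow_mul, zpow_natCast]
        _ = a ^ (((2 ^ n : ℕ) : ℤ) * j) := by rw [mul_comm]
        _ = (a ^ (2 ^ n)) ^ j := by rw [zpow_mul, zpow_natCast]
    have h1 : x * a ^ (2 ^ n) * x⁻¹ = (a ^ (2 ^ n)) ^ j := by
      rw [← conj_pow, ← hj, h0]
    have h2 : (a ^ (2 ^ n)) ^ j = (a ^ (2 ^ n)) ^ (j % 2) := by
      have h := zpow_mod_orderOf (a ^ (2 ^ n)) j
      rw [hoz] at h
      exact h.symm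
    rcases Int.emod_two_eq_zero_or_one j with h3 | h3
    · exfalso
      rw [h2, h3, zpow_zero] at h1
      apply hz1
      have h4 : a ^ (2 ^ n) = x⁻¹ * (x * a ^ (2 ^ n) * x⁻¹) * x := by group
      rw [h4, h1]; group
    · rw [h1, h2, h3, zpow_one]
  have hzc : a ^ (2 ^ n) ∈ Subgroup.center G :=
    HTIdx2.mem_center_of ha hG hx ((Commute.refl a).pow_right _)
      (mul_inv_eq_iff_eq_mul.mp hxz)
  -- `Stab(v) ∩ ⟨a⟩ = 1`
  have hHstab : ∀ v : V, v ≠ 0 → ∀ k : ℤ, ρ (a ^ k) v = v → a ^ k = 1 := by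
    intro v hv k hk
    by_contra hne
    obtain ⟨m, hm⟩ := pow_eq_z ha k hne
    apply hZ _ hzc hz1 v hv
    rw [← hm]
    exact fix_pow ρ hk m
  -- stabilizers have order at most `2`
  have hle : ∀ v : V, v ≠ 0 → Nat.card {g : G // ρ g v = v} ≤ 2 := by
    intro v hv
    have hinj : Function.Injective
        (fun g : {g : G // ρ g v = v} => decide (g.1 ∈ Subgroup.zpowers a)) := by
      intro g h hgh
      simp only [decide_eq_decide] at hgh
      by_cases h1 : g.1 ∈ Subgroup.zpowers a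
      · obtain ⟨k, hk⟩ := Subgroup.mem_zpowers_iff.mp h1
        obtain ⟨k', hk'⟩ := Subgroup.mem_zpowers_iff.mp (hgh.mp h1)
        have e1 : g.1 = 1 := by
          rw [← hk]; apply hHstab v hv k; rw [hk]; exact g.2
        have e2 : h.1 = 1 := by
          rw [← hk']; apply hHstab v hv k'; rw [hk']; exact h.2
        exact Subtype.ext (e1.trans e2.symm)
      · have h2 : h.1 ∉ Subgroup.zpowers a := fun h2 => h1 (hgh.mpr h2)
        have h3 : g.1⁻¹ * h.1 ∈ Subgroup.zpowers a := by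
          rw [Subgroup.mul_mem_iff_of_index_two (HTIdx2.index_two ha hG), inv_mem_iff]
          simp [h1, h2]
        obtain ⟨k, hk⟩ := Subgroup.mem_zpowers_iff.mp h3
        have h5 : ρ g.1⁻¹ v = v := by
          calc ρ g.1⁻¹ v = ρ g.1⁻¹ (ρ g.1 v) := by rw [g.2]
            _ = v := by rw [← HTSCAL.rho_mul, inv_mul_cancel, HTSCAL.rho_one]
        have h4 : g.1⁻¹ * h.1 = 1 := by
          rw [← hk]; apply hHstab v hv k; rw [hk, HTSCAL.rho_mul, h.2, h5]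
        exact Subtype.ext (inv_mul_eq_one.mp h4)
    have h6 := Nat.card_le_card_of_injective _ hinj
    simpa using h6
  -- `x` fixes a non-zero vector
  obtain ⟨v₀, hv₀, hxv₀⟩ : ∃ v₀ : V, v₀ ≠ 0 ∧ ρ x v₀ = v₀ := by
    by_contra hcon
    push Not at hcon
    apply hx
    have h1 : ∀ v, ρ x v = -v := HTSCAL.neg_of_fpf ρ hxx hcon
    have h2 : ∀ v, ρ (a ^ (2 ^ n)) v = -v := HTSCAL.neg_of_fpf ρ hzz (hZ _ hzc hz1)
    have h3 : ρ x = ρ (a ^ (2 ^ n)) := LinearEquiv.ext (fun v => by rw [h1, h2])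
    rw [hρ h3]
    exact pow_mem (Subgroup.mem_zpowers a) _
  have h2 : Nat.card {g : G // ρ g v₀ = v₀} = 2 := by
    apply le_antisymm (hle v₀ hv₀)
    have hnt : Nontrivial {g : G // ρ g v₀ = v₀} :=
      ⟨⟨⟨1, HTSCAL.rho_one ρ v₀⟩, ⟨x, hxv₀⟩, fun h => hx (by
        have h' : (1 : G) = x := congrArg Subtype.val h
        rw [← h']; exact one_mem _)⟩⟩
    exact Finite.one_lt_card
  intro v hv
  rw [hES v v₀ hv hv₀, h2]

end Cfsg.Agent.Lib.Helper13.HTSTAB2B
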