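import Mathlib
import Cfsg.Agent.Lib.Helper88.MCStmt
import Cfsg.Agent.S0564

/-!
# S4245 / NILIDX (call by helper88): a finite group with a cyclic subgroup of prime power index is
solvable (`G = P B` for a Sylow `p`-subgroup `P`, then Kegel-Wielandt, landed S0564).
-/

set_option autoImplicit false

universe u

namespace Cfsg.Agent.Lib.Helper13.MCNILIDX

open Cfsg.Agent.Lib.Helper88.MCStmt

/-- `G = P B` when `B.index` is a power of `p` and `P` is a Sylow `p`-subgroup. -/
theorem exists_mul {G : Type u} [Group G] [Finite G] (B : Subgroup G) (p k : ℕ) [Fact p.Prime]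
    (hBi : B.index = p ^ k) (P : Sylow p G) (g : G) :
    ∃ a ∈ (P : Subgroup G), ∃ b ∈ B, g = a * b := by
  have hp : p.Prime := Fact.out
  have h1 : (B ⊓ ↑P).relIndex B * B.index = (B ⊓ ↑P).index :=
    Subgroup.relIndex_mul_index inf_le_left
  have h2 : (B ⊓ ↑P).relIndex ↑P * (↑P : Subgroup G).index = (B ⊓ ↑P).index :=
    Subgroup.relIndex_mul_index inf_le_right
  have h3 : p ^ k ∣ (B ⊓ ↑P).relIndex ↑P * (↑P : Subgroup G).index := by
    rw [h2, ← h1, hBi]
    exact dvd_mul_left _ _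
  have hcop : (p ^ k).Coprime (↑P : Subgroup G).index :=
    Nat.Coprime.pow_left k ((Nat.Prime.coprime_iff_not_dvd hp).mpr P.not_dvd_index)
  have h4 : p ^ k ∣ (B ⊓ ↑P).relIndex ↑P := hcop.dvd_of_dvd_mul_right h3
  rw [Subgroup.inf_relIndex_right] at h4
  have hpos : 0 < B.relIndex ↑P := by
    apply Nat.pos_of_ne_zero
    intro h0
    have : (B.subgroupOf ↑P).index = 0 := h0
    exact Subgroup.FiniteIndex.index_ne_zero this
  have h5 : p ^ k ≤ B.relIndex ↑P := Nat.le_of_dvd hpos h4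
  have hc1 : Nat.card (↥(P : Subgroup G) ⧸ B.subgroupOf ↑P) = B.relIndex ↑P :=
    (Subgroup.index_eq_card _).symm
  have hc2 : Nat.card (↥(⊤ : Subgroup G) ⧸ B.subgroupOf ⊤) = p ^ k := by
    rw [← Subgroup.index_eq_card]
    have : (B.subgroupOf ⊤).index = B.relIndex ⊤ := rfl
    rw [this, Subgroup.relIndex_top_right, hBi]
  have hbij : Function.Bijective
      (Subgroup.quotientSubgroupOfEmbeddingOfLE B (le_top : (↑P : Subgroup G) ≤ ⊤)) :=
    Function.Injective.bijective_of_nat_card_le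
      (Subgroup.quotientSubgroupOfEmbeddingOfLE B (le_top : (↑P : Subgroup G) ≤ ⊤)).injective
      (by rw [hc1, hc2]; exact h5)
  obtain ⟨y, hy⟩ := hbij.2 (QuotientGroup.mk (⟨g, Subgroup.mem_top g⟩ : ↥(⊤ : Subgroup G)))
  obtain ⟨x, rfl⟩ := QuotientGroup.mk_surjective y
  rw [Subgroup.quotientSubgroupOfEmbeddingOfLE_apply_mk, QuotientGroup.eq] at hy
  have hy' : (x : G)⁻¹ * g ∈ B := Subgroup.mem_subgroupOf.mp hy
  exact ⟨x, x.2, _, hy', by group⟩

theorem main : NilIdx.{u} := by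
  intro G _ _ B p k hp hB hBi
  have : Fact p.Prime := ⟨hp⟩
  obtain ⟨P⟩ := (inferInstance : Nonempty (Sylow p G))
  have hPn : Group.IsNilpotent ↥(P : Subgroup G) := P.isPGroup'.isNilpotent
  have hBn : Group.IsNilpotent ↥B := by
    let _ : CommGroup ↥B := IsCyclic.commGroup
    exact CommGroup.isNilpotent
  exact Cfsg.Agent.S0564.result (P : Subgroup G) B hPn hBn (exists_mul B p k hBi P)

end Cfsg.Agent.Lib.Helper13.MCNILIDX
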