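import Mathlib
import Cfsg.Agent.Lib.Helper41.OFStmt

/-!
# S5977, piece GLUE: two `L`-frames with congruent Gram matrices give an isometry intertwining
the two `L`-structures
-/

set_option autoImplicit false

namespace Cfsg.Agent.Lib.Helper13.OFGLUE

open Matrix
open Cfsg.Agent.Lib.Helper41.SpFStmt (Mat)
open Cfsg.Agent.Lib.Helper41.OFStmt

universe u

theorem mat_ext_of_mulVec {n : Type} [Fintype n] [DecidableEq n] {R : Type u} [CommRing R]
    (M N : Matrix n n R) (h : ∀ v, M *ᵥ v = N *ᵥ v) : M = N := by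
  apply Matrix.toLin'.injective
  apply LinearMap.ext
  intro v
  simpa [Matrix.toLin'_apply] using h v

theorem mat_ext_of_dot {n : Type} [Fintype n] [DecidableEq n] {R : Type u} [CommRing R]
    (M N : Matrix n n R) (h : ∀ u v, u ⬝ᵥ (M *ᵥ v) = u ⬝ᵥ (N *ᵥ v)) : M = N := by
  apply mat_ext_of_mulVec
  intro v
  exact dotProduct_eq _ _ (fun u => by rw [dotProduct_comm, h u v, dotProduct_comm])

variable {F : Type u} [Field F] {d : ℕ} {L : Type u} [Field L] [Algebra F L]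

/-- `Coord` as an `F`-linear map. -/
noncomputable def coordL (φ : L →ₐ[F] Mat d F) {m' : ℕ} (b : Fin m' → (Fin d ⊕ Fin d → F)) :
    (Fin m' → L) →ₗ[F] (Fin d ⊕ Fin d → F) where
  toFun := Coord φ b
  map_add' c c' := by
    simp only [Coord, Pi.add_apply, map_add, Matrix.add_mulVec, Finset.sum_add_distrib]
  map_smul' a c := by
    simp only [Coord, Pi.smul_apply, map_smul, Matrix.smul_mulVec, Finset.smul_sum,
      RingHom.id_apply]

theorem coord_smul (φ : L →ₐ[F] Mat d F) {m' : ℕ} (b : Fin m' → (Fin d ⊕ Fin d → F))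
    (x : L) (c : Fin m' → L) : Coord φ b (x • c) = φ x *ᵥ Coord φ b c := by
  simp only [Coord, Pi.smul_apply, smul_eq_mul, map_mul, Matrix.mulVec_sum, Matrix.mulVec_mulVec]

theorem main : Glue.{u} := by
  intro F _ d L _ _ φ φ' τ m' b b' G G' P hfr hfr' hP hPG
  obtain ⟨hG1, hG2, hbij, hform⟩ := hfr
  obtain ⟨hG1', hG2', hbij', hform'⟩ := hfr'
  obtain ⟨E, hE⟩ : ∃ E : (Fin m' → L) ≃ₗ[F] (Fin d ⊕ Fin d → F), ∀ c, E c = Coord φ b c :=
    ⟨LinearEquiv.ofBijective (coordL φ b) hbij, fun c => rfl⟩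
  obtain ⟨E', hE'⟩ : ∃ E' : (Fin m' → L) ≃ₗ[F] (Fin d ⊕ Fin d → F), ∀ c, E' c = Coord φ' b' c :=
    ⟨LinearEquiv.ofBijective (coordL φ' b') hbij', fun c => rfl⟩
  obtain ⟨hl, hhl⟩ : ∃ hl : (Fin d ⊕ Fin d → F) →ₗ[F] (Fin d ⊕ Fin d → F),
      ∀ v, hl v = Coord φ b (P *ᵥ E'.symm v) :=
    ⟨(E : (Fin m' → L) →ₗ[F] _) ∘ₗ ((Matrix.toLin' P).restrictScalars F) ∘ₗ
      (E'.symm : _ →ₗ[F] _), fun v => by
        simp only [LinearMap.coe_comp, LinearEquiv.coe_coe, Function.comp_apply,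
          LinearMap.coe_restrictScalars, Matrix.toLin'_apply, hE]⟩
  have hh : ∀ v, (LinearMap.toMatrix' hl) *ᵥ v = Coord φ b (P *ᵥ E'.symm v) := by
    intro v
    rw [← Matrix.toLin'_apply, Matrix.toLin'_toMatrix', hhl]
  have hsymm : ∀ v, Coord φ' b' (E'.symm v) = v := by
    intro v
    rw [← hE', LinearEquiv.apply_symm_apply]
  refine ⟨LinearMap.toMatrix' hl, ?_, ?_⟩
  · apply mat_ext_of_dot
    intro u v
    have e1 : u ⬝ᵥ ((LinearMap.toMatrix' hl)ᵀ * S0 d F * LinearMap.toMatrix' hl) *ᵥ v =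
        (LinearMap.toMatrix' hl *ᵥ u) ⬝ᵥ (S0 d F *ᵥ (LinearMap.toMatrix' hl *ᵥ v)) := by
      rw [Matrix.mul_assoc, ← Matrix.mulVec_mulVec, Matrix.dotProduct_mulVec,
        Matrix.vecMul_transpose, Matrix.mulVec_mulVec]
    rw [e1, hh, hh, hform]
    conv_rhs => rw [← hsymm u, ← hsymm v, hform']
    congr 1
    rw [← hPG]
    rw [Matrix.mul_assoc, ← Matrix.mulVec_mulVec, Matrix.dotProduct_mulVec (E'.symm u),
      Matrix.vecMul_transpose, Matrix.mulVec_mulVec]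
  · intro c
    apply mat_ext_of_mulVec
    intro v
    rw [← Matrix.mulVec_mulVec, ← Matrix.mulVec_mulVec, hh, hh, ← coord_smul]
    congr 1
    have e2 : E'.symm (φ' c *ᵥ v) = c • E'.symm v := by
      apply E'.injective
      rw [LinearEquiv.apply_symm_apply, hE', coord_smul, hsymm]
    rw [e2, Matrix.mulVec_smul]

end Cfsg.Agent.Lib.Helper13.OFGLUE
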