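import Mathlib
import Cfsg.Agent.Lib.Helper41.OFStmt

/-!
# S5977, piece LJ: the quadratic extension `L = F(√l)` and its embeddings `a + b j₀ ↦ a + b J`
-/

set_option autoImplicit false

namespace Cfsg.Agent.Lib.Helper13.OFLJ

open Matrix Polynomial
open Cfsg.Agent.Lib.Helper41.SpFStmt (Mat)
open Cfsg.Agent.Lib.Helper41.OFStmt

universe u

theorem isSquare_neg_one_mul {F : Type u} [Field F] [Fintype F] (l : F) (hl : ¬ IsSquare l)
    (hm : ¬ IsSquare (-1 : F)) : IsSquare ((-1 : F) * l) := by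
  classical
  have hl0 : l ≠ 0 := fun h => hl (h ▸ IsSquare.zero)
  have hm0 : (-1 : F) ≠ 0 := by simp
  rw [← quadraticChar_one_iff_isSquare (mul_ne_zero hm0 hl0), map_mul,
    quadraticChar_neg_one_iff_not_isSquare.mpr hm, quadraticChar_neg_one_iff_not_isSquare.mpr hl]
  norm_num

theorem main : LJ.{u} := by
  intro F _ _ h2 l hl
  have hl0 : l ≠ 0 := fun h => hl (h ▸ IsSquare.zero)
  obtain ⟨f, hf⟩ : ∃ f : F[X], f = X ^ 2 - C l := ⟨_, rfl⟩
  have hdeg : f.natDegree = 2 := by
    rw [hf]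
    exact natDegree_X_pow_sub_C
  have hirr : Irreducible f := by
    apply irreducible_of_degree_le_three_of_not_isRoot
    · rw [hdeg]
      decide
    · intro x hx
      apply hl
      rw [hf, IsRoot, eval_sub, eval_pow, eval_X, eval_C] at hx
      exact ⟨x, by linear_combination -hx⟩
  have : Fact (Irreducible f) := ⟨hirr⟩
  have hf0 : f ≠ 0 := hirr.ne_zero
  let _ : Field (AdjoinRoot f) := AdjoinRoot.instField
  have : Module.Finite F (AdjoinRoot f) := (AdjoinRoot.powerBasis hf0).finite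
  have : Finite (AdjoinRoot f) := Module.finite_of_finite F
  let _ : Fintype (AdjoinRoot f) := Fintype.ofFinite _
  have hroot : AdjoinRoot.root f * AdjoinRoot.root f = algebraMap F (AdjoinRoot f) l := by
    have h : eval₂ (AdjoinRoot.of f) (AdjoinRoot.root f) (X ^ 2 - C l) = 0 := by
      rw [← hf]
      exact AdjoinRoot.eval₂_root f
    rw [eval₂_sub, eval₂_pow, eval₂_X, eval₂_C, sub_eq_zero] at h
    rw [AdjoinRoot.algebraMap_eq, ← pow_two]
    exact h
  refine ⟨AdjoinRoot f, AdjoinRoot.instField, Fintype.ofFinite _, inferInstance,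
    AdjoinRoot.root f, hroot, ?_, ?_, ?_, ?_, ?_⟩
  · rw [Module.card_eq_pow_finrank (K := F) (V := AdjoinRoot f),
      (AdjoinRoot.powerBasis hf0).finrank, AdjoinRoot.powerBasis_dim, hdeg]
  · have h : algebraMap F (AdjoinRoot f) 2 ≠ 0 := (_root_.map_ne_zero _).mpr h2
    rwa [map_ofNat] at h
  · by_cases hm : IsSquare (-1 : F)
    · obtain ⟨s, hs⟩ := hm
      exact ⟨algebraMap F (AdjoinRoot f) s, by rw [← map_mul, ← hs, map_neg, map_one]⟩
    · obtain ⟨s, hs⟩ := isSquare_neg_one_mul l hl hm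
      refine ⟨AdjoinRoot.root f * algebraMap F (AdjoinRoot f) (s / l), ?_⟩
      have e1 : AdjoinRoot.root f * algebraMap F (AdjoinRoot f) (s / l) *
          (AdjoinRoot.root f * algebraMap F (AdjoinRoot f) (s / l)) =
          algebraMap F (AdjoinRoot f) (l * ((s / l) * (s / l))) := by
        rw [map_mul, map_mul, ← hroot]
        ring
      rw [e1]
      have e2 : l * ((s / l) * (s / l)) = -1 := by
        field_simp
        linear_combination -hs
      rw [e2, map_neg, map_one]
  · by_contra hcon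
    push Not at hcon
    have h1 := (Module.forall_dual_apply_eq_zero_iff F (1 : AdjoinRoot f)).mp
      (fun τ => by rw [hcon τ]; rfl)
    exact one_ne_zero h1
  · intro d hd J hJ
    have : Nonempty (Fin d ⊕ Fin d) := ⟨Sum.inl ⟨0, hd⟩⟩
    have hJ0 : aeval J f = 0 := by
      rw [hf, map_sub, map_pow, aeval_X, aeval_C, pow_two, hJ, Algebra.algebraMap_eq_smul_one,
        sub_self]
    have hI : ∀ a ∈ Ideal.span ({f} : Set F[X]), (aeval J) a = 0 := by
      intro a ha
      obtain ⟨q, rfl⟩ := Ideal.mem_span_singleton'.mp ha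
      rw [map_mul, hJ0, mul_zero]
    obtain ⟨φ, hφ⟩ : ∃ φ : AdjoinRoot f →ₐ[F] Mat d F,
        ∀ p : F[X], φ (AdjoinRoot.mk f p) = aeval J p :=
      ⟨Ideal.Quotient.liftₐ (Ideal.span ({f} : Set F[X])) (aeval J) hI, fun p => rfl⟩
    refine ⟨φ, (φ : AdjoinRoot f →+* Mat d F).injective, ?_, ?_⟩
    · rw [← AdjoinRoot.mk_X, hφ, aeval_X]
    · intro c
      obtain ⟨p, rfl⟩ := AdjoinRoot.mk_surjective c
      rw [hφ]
      induction p using Polynomial.induction_on with
      | C a =>
        exact ⟨a, 0, by rw [aeval_C, Algebra.algebraMap_eq_smul_one, zero_smul, add_zero]⟩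
      | add p q hp hq =>
        obtain ⟨a, b, hab⟩ := hp
        obtain ⟨a', b', hab'⟩ := hq
        exact ⟨a + a', b + b', by rw [map_add, hab, hab', add_smul, add_smul]; abel⟩
      | monomial n a h =>
        obtain ⟨a', b', hab⟩ := h
        refine ⟨b' * l, a', ?_⟩
        rw [pow_succ, ← mul_assoc, map_mul, aeval_X, hab, add_mul, Matrix.smul_mul,
          Matrix.smul_mul, Matrix.one_mul, hJ, smul_smul, add_comm]

end Cfsg.Agent.Lib.Helper13.OFLJ
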