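import Mathlib
import Cfsg.Agent.Lib.Helper41.OFStmt

/-!
# S5977, piece PL1 (`SaJ → Eig1 → ReflS → PL1`)
-/

set_option autoImplicit false

namespace Cfsg.Agent.Lib.Helper13.OFPL1

open Matrix
open Cfsg.Agent.Lib.Helper41.SpFStmt (Mat)
open Cfsg.Agent.Lib.Helper41.OFStmt

universe u

section conj

variable {F : Type u} [Field F] {m n : Type} [Fintype m] [Fintype n] [DecidableEq m]
  [DecidableEq n] {P : Matrix m n F} {P' : Matrix n m F}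

set_option linter.unusedSectionVars false

theorem conj_mul (hP'P : P' * P = 1) (A B : Matrix n n F) :
    (P * A * P') * (P * B * P') = P * (A * B) * P' := by
  calc (P * A * P') * (P * B * P') = P * A * (P' * P) * B * P' := by
        simp only [Matrix.mul_assoc]
    _ = P * (A * B) * P' := by rw [hP'P]; simp only [Matrix.mul_assoc, Matrix.one_mul]

theorem conj_one (hPP' : P * P' = 1) : P * (1 : Matrix n n F) * P' = 1 := by
  rw [Matrix.mul_one, hPP']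

theorem conj_smul (hPP' : P * P' = 1) (a : F) : P * (a • (1 : Matrix n n F)) * P' = a • 1 := by
  rw [Matrix.mul_smul, Matrix.smul_mul, Matrix.mul_one, hPP']

/-- congruence: with `S = P'ᵀ D P'`, `(P A P')ᵀ S (P B P') = P'ᵀ (Aᵀ D B) P'`. -/
theorem congr_mul (hP'P : P' * P = 1) (D A B : Matrix n n F) :
    (P * A * P')ᵀ * (P'ᵀ * D * P') * (P * B * P') = P'ᵀ * (Aᵀ * D * B) * P' := by
  have h1 : Pᵀ * P'ᵀ = 1 := by rw [← Matrix.transpose_mul, hP'P, Matrix.transpose_one]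
  calc (P * A * P')ᵀ * (P'ᵀ * D * P') * (P * B * P')
      = P'ᵀ * Aᵀ * (Pᵀ * P'ᵀ) * D * (P' * P) * B * P' := by
        simp only [Matrix.transpose_mul, Matrix.mul_assoc]
    _ = P'ᵀ * (Aᵀ * D * B) * P' := by
        rw [h1, hP'P]; simp only [Matrix.mul_assoc, Matrix.one_mul]

theorem left_mul (hP'P : P' * P = 1) (D B : Matrix n n F) :
    (P'ᵀ * D * P') * (P * B * P') = P'ᵀ * (D * B) * P' := by
  calc (P'ᵀ * D * P') * (P * B * P') = P'ᵀ * D * (P' * P) * B * P' := by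
        simp only [Matrix.mul_assoc]
    _ = P'ᵀ * (D * B) * P' := by rw [hP'P]; simp only [Matrix.mul_assoc, Matrix.one_mul]

theorem right_mul (hP'P : P' * P = 1) (D A : Matrix n n F) :
    (P * A * P')ᵀ * (P'ᵀ * D * P') = P'ᵀ * (Aᵀ * D) * P' := by
  have h1 : Pᵀ * P'ᵀ = 1 := by rw [← Matrix.transpose_mul, hP'P, Matrix.transpose_one]
  calc (P * A * P')ᵀ * (P'ᵀ * D * P') = P'ᵀ * Aᵀ * (Pᵀ * P'ᵀ) * D * P' := by
        simp only [Matrix.transpose_mul, Matrix.mul_assoc]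
    _ = P'ᵀ * (Aᵀ * D) * P' := by rw [h1]; simp only [Matrix.mul_assoc, Matrix.one_mul]

end conj

theorem main (hSaJ : SaJ.{u}) (hEig1 : Eig1.{u}) (hReflS : ReflS.{u}) : PL1.{u} := by
  intro F _ _ h2 d hd l hl x hx hxx hxdet
  obtain ⟨k₁, k₂, P, P', S₁, S₂, hk, hPP', hP'P, hS₁, hS₁d, hS₂, hS₂d, hPS, hxP⟩ :=
    hEig1 h2 d x hx hxx hxdet
  obtain ⟨J₁, hJ₁, hSJ₁⟩ := hSaJ h2 l hl k₁ S₁ hS₁ hS₁d
  obtain ⟨J₂, hJ₂, hSJ₂⟩ := hSaJ h2 l hl k₂ S₂ hS₂ hS₂d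
  obtain ⟨X, hX⟩ : ∃ X : Matrix (Fin (2 * k₁) ⊕ Fin (2 * k₂)) (Fin (2 * k₁) ⊕ Fin (2 * k₂)) F,
      X = Matrix.fromBlocks 1 0 0 (-1) := ⟨_, rfl⟩
  obtain ⟨D, hD⟩ : ∃ D : Matrix (Fin (2 * k₁) ⊕ Fin (2 * k₂)) (Fin (2 * k₁) ⊕ Fin (2 * k₂)) F,
      D = Matrix.fromBlocks S₁ 0 0 S₂ := ⟨_, rfl⟩
  have hxP' : x * P = P * X := by rw [hX]; exact hxP
  have hPS' : Pᵀ * S0 d F * P = D := by rw [hD]; exact hPS
  have hT : ∃ T : Matrix (Fin (2 * k₁) ⊕ Fin (2 * k₂)) (Fin (2 * k₁) ⊕ Fin (2 * k₂)) F,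
      Tᵀ * D * T = D ∧ T * T = 1 ∧ T.det = -1 ∧ T * X = X * T := by
    by_cases hk1 : 1 ≤ k₁
    · obtain ⟨t₁, ht1, ht2, ht3⟩ := hReflS h2 (2 * k₁) (by omega) S₁ hS₁ hS₁d
      refine ⟨Matrix.fromBlocks t₁ 0 0 1, ?_, ?_, ?_, ?_⟩
      · rw [hD]
        simp [Matrix.fromBlocks_transpose, Matrix.fromBlocks_multiply, ht1]
      · simp [Matrix.fromBlocks_multiply, ht2, Matrix.fromBlocks_one]
      · rw [Matrix.det_fromBlocks_zero₂₁, ht3]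
        simp
      · rw [hX]
        simp [Matrix.fromBlocks_multiply]
    · have hk2 : 1 ≤ k₂ := by omega
      obtain ⟨t₂, ht1, ht2, ht3⟩ := hReflS h2 (2 * k₂) (by omega) S₂ hS₂ hS₂d
      refine ⟨Matrix.fromBlocks 1 0 0 t₂, ?_, ?_, ?_, ?_⟩
      · rw [hD]
        simp [Matrix.fromBlocks_transpose, Matrix.fromBlocks_multiply, ht1]
      · simp [Matrix.fromBlocks_multiply, ht2, Matrix.fromBlocks_one]
      · rw [Matrix.det_fromBlocks_zero₂₁, ht3]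
        simp
      · rw [hX]
        simp [Matrix.fromBlocks_multiply]
  obtain ⟨T, hT1, hT2, hT3, hT4⟩ := hT
  have hS0 : S0 d F = P'ᵀ * D * P' := by
    rw [← hPS']
    calc S0 d F = (P * P')ᵀ * S0 d F * (P * P') := by rw [hPP']; simp
      _ = P'ᵀ * (Pᵀ * S0 d F * P) * P' := by
        rw [Matrix.transpose_mul]; simp only [Matrix.mul_assoc]
  have hxe : x = P * X * P' := by
    rw [← hxP', Matrix.mul_assoc, hPP', Matrix.mul_one]
  obtain ⟨JJ, hJJ⟩ : ∃ JJ : Matrix (Fin (2 * k₁) ⊕ Fin (2 * k₂)) (Fin (2 * k₁) ⊕ Fin (2 * k₂)) F,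
      JJ = Matrix.fromBlocks J₁ 0 0 J₂ := ⟨_, rfl⟩
  have hJJ1 : JJ * JJ = l • 1 := by
    rw [hJJ, Matrix.fromBlocks_multiply, ← Matrix.fromBlocks_one, Matrix.fromBlocks_smul]
    simp [hJ₁, hJ₂]
  have hJJ2 : D * JJ = JJᵀ * D := by
    rw [hJJ, hD, Matrix.fromBlocks_transpose, Matrix.fromBlocks_multiply,
      Matrix.fromBlocks_multiply]
    simp [hSJ₁, hSJ₂]
  have hJJ3 : X * JJ = JJ * X := by
    rw [hJJ, hX, Matrix.fromBlocks_multiply, Matrix.fromBlocks_multiply]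
    simp
  refine ⟨P * JJ * P', P * T * P', ?_, ?_, ?_, ?_, ?_, ?_, ?_⟩
  · rw [conj_mul hP'P, hJJ1, conj_smul hPP' l]
  · rw [hS0, left_mul hP'P, right_mul hP'P, hJJ2]
  · rw [hxe, conj_mul hP'P, conj_mul hP'P, hJJ3]
  · rw [hS0, congr_mul hP'P, hT1]
  · rw [conj_mul hP'P, hT2, conj_one hPP']
  · rw [Matrix.det_conj_of_mul_eq_one hPP' hP'P, hT3]
  · rw [hxe, conj_mul hP'P, conj_mul hP'P, hT4]

end Cfsg.Agent.Lib.Helper13.OFPL1
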