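import Mathlib
import Cfsg.Agent.Lib.Helper41.OFStmt
import Cfsg.Agent.Lib.Helper97.OrtCONG
import Cfsg.Agent.Lib.Helper13.OFPL1

/-!
# S5977, piece PLM (`EigM → PLM`)
-/

set_option autoImplicit false

namespace Cfsg.Agent.Lib.Helper13.OFPLM

open Matrix
open Cfsg.Agent.Lib.Helper41.SpFStmt (Mat)
open Cfsg.Agent.Lib.Helper41.OFStmt

universe u

variable {F : Type u} [Field F] {d : ℕ}

/-- block matrix with four diagonal blocks -/
def dB (a b c e : Fin d → F) : Mat d F :=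
  Matrix.fromBlocks (Matrix.diagonal a) (Matrix.diagonal b) (Matrix.diagonal c) (Matrix.diagonal e)

theorem dB_mul (a b c e a' b' c' e' : Fin d → F) :
    dB a b c e * dB a' b' c' e' =
      dB (fun j => a j * a' j + b j * c' j) (fun j => a j * b' j + b j * e' j)
        (fun j => c j * a' j + e j * c' j) (fun j => c j * b' j + e j * e' j) := by
  unfold dB
  rw [Matrix.fromBlocks_multiply]
  simp only [Matrix.diagonal_mul_diagonal, Matrix.diagonal_add]

theorem dB_transpose (a b c e : Fin d → F) : (dB a b c e)ᵀ = dB a c b e := by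
  unfold dB
  rw [Matrix.fromBlocks_transpose]
  simp only [Matrix.diagonal_transpose]

theorem dB_neg (a b c e : Fin d → F) :
    -(dB a b c e) = dB (fun j => -a j) (fun j => -b j) (fun j => -c j) (fun j => -e j) := by
  unfold dB
  rw [Matrix.fromBlocks_neg]
  simp only [Matrix.diagonal_neg]

theorem dB_congr {a b c e a' b' c' e' : Fin d → F} (h1 : ∀ j, a j = a' j) (h2 : ∀ j, b j = b' j)
    (h3 : ∀ j, c j = c' j) (h4 : ∀ j, e j = e' j) : dB a b c e = dB a' b' c' e' := by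
  rw [funext h1, funext h2, funext h3, funext h4]

theorem dB_smul_one (l : F) :
    (l • (1 : Mat d F)) = dB (fun _ => l) (fun _ => 0) (fun _ => 0) (fun _ => l) := by
  unfold dB
  rw [← Matrix.fromBlocks_one, Matrix.fromBlocks_smul]
  congr 1
  · ext i j
    by_cases h : i = j <;> simp [Matrix.diagonal, h]
  · ext i j
    simp [Matrix.diagonal]
  · ext i j
    simp [Matrix.diagonal]
  · ext i j
    by_cases h : i = j <;> simp [Matrix.diagonal, h]

theorem dB_one : (1 : Mat d F) = dB (fun _ => 1) (fun _ => 0) (fun _ => 0) (fun _ => 1) := by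
  rw [← dB_smul_one, one_smul]

theorem dB_X : (Matrix.fromBlocks 0 (-1) 1 0 : Mat d F) =
    dB (fun _ => 0) (fun _ => -1) (fun _ => 1) (fun _ => 0) := by
  unfold dB
  congr 1
  all_goals
    ext i j
    by_cases h : i = j <;> simp [Matrix.diagonal, h]

theorem dB_D (D : Fin d → F) :
    (Matrix.fromBlocks (Matrix.diagonal D) 0 0 (Matrix.diagonal D) : Mat d F) =
    dB D (fun _ => 0) (fun _ => 0) D := by
  unfold dB
  congr 1
  · ext i j
    simp [Matrix.diagonal]
  · ext i j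
    simp [Matrix.diagonal]

theorem dB_det (a e : Fin d → F) :
    (dB a (fun _ => 0) (fun _ => 0) e).det = (∏ j, a j) * ∏ j, e j := by
  unfold dB
  have h0 : (Matrix.diagonal (fun _ : Fin d => (0 : F))) = 0 := by
    ext i j
    simp [Matrix.diagonal]
  rw [h0, Matrix.det_fromBlocks_zero₂₁, Matrix.det_diagonal, Matrix.det_diagonal]

/-- the matrix `J_ε` in the adapted basis -/
def Je (s t : F) (ε : Fin d → F) : Mat d F :=
  dB (fun _ => s) (fun j => t * ε j) (fun j => t * ε j) (fun _ => -s)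

theorem Je_sq (s t l : F) (hst : s ^ 2 + t ^ 2 = l) (ε : Fin d → F) (hε : ∀ j, ε j ^ 2 = 1) :
    Je s t ε * Je s t ε = l • 1 := by
  rw [dB_smul_one, Je, dB_mul]
  apply dB_congr
  · intro j
    linear_combination hst + t ^ 2 * hε j
  · intro j
    ring
  · intro j
    ring
  · intro j
    linear_combination hst + t ^ 2 * hε j

theorem Je_sa (s t : F) (ε D : Fin d → F) :
    dB D (fun _ => 0) (fun _ => 0) D * Je s t ε =
      (Je s t ε)ᵀ * dB D (fun _ => 0) (fun _ => 0) D := by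
  rw [Je, dB_transpose, dB_mul, dB_mul]
  apply dB_congr <;> intro j <;> ring

theorem Je_anti (s t : F) (ε : Fin d → F) :
    dB (fun _ => 0) (fun _ => -1) (fun _ => 1) (fun _ => 0) * Je s t ε =
      -(Je s t ε * dB (fun _ => 0) (fun _ => -1) (fun _ => 1) (fun _ => 0)) := by
  rw [Je, dB_mul, dB_mul, dB_neg]
  apply dB_congr <;> intro j <;> ring

theorem main (hEigM : EigM.{u}) : PLM.{u} := by
  intro F _ _ h2 d hd l hl x hx hxx
  obtain ⟨P, P', D, hPP', hP'P, hD, hPS, hxP⟩ := hEigM h2 d x hx hxx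
  have hl0 : l ≠ 0 := fun h => hl (h ▸ IsSquare.zero)
  obtain ⟨s, t, hst⟩ := Helper97.OrtCONG.exists_binary h2 l⁻¹ l⁻¹ (inv_ne_zero hl0)
    (inv_ne_zero hl0)
  have hst' : s ^ 2 + t ^ 2 = l := by
    field_simp at hst
    linear_combination hst
  rw [dB_D] at hPS
  rw [dB_X] at hxP
  obtain ⟨X, hX⟩ : ∃ X : Mat d F, X = dB (fun _ => 0) (fun _ => -1) (fun _ => 1) (fun _ => 0) :=
    ⟨_, rfl⟩
  obtain ⟨Dg, hDg⟩ : ∃ Dg : Mat d F, Dg = dB D (fun _ => 0) (fun _ => 0) D := ⟨_, rfl⟩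
  rw [← hX] at hxP
  rw [← hDg] at hPS
  have hS0 : S0 d F = P'ᵀ * Dg * P' := by
    rw [← hPS]
    calc S0 d F = (P * P')ᵀ * S0 d F * (P * P') := by rw [hPP']; simp
      _ = P'ᵀ * (Pᵀ * S0 d F * P) * P' := by
        rw [Matrix.transpose_mul]; simp only [Matrix.mul_assoc]
  have hxe : x = P * X * P' := by
    rw [← hxP, Matrix.mul_assoc, hPP', Matrix.mul_one]
  -- the sign vector δ
  obtain ⟨δ, hδ⟩ : ∃ δ : Fin d → F, δ = fun j => if j = ⟨0, hd⟩ then -1 else 1 := ⟨_, rfl⟩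
  have hδ2 : ∀ j, δ j ^ 2 = 1 := by
    intro j
    rw [hδ]
    by_cases h : j = ⟨0, hd⟩ <;> simp [h]
  have hδprod : ∏ j, δ j = -1 := by
    rw [hδ, Finset.prod_ite_eq' Finset.univ (⟨0, hd⟩ : Fin d) (fun _ => (-1 : F))]
    simp
  obtain ⟨Tm, hTm⟩ : ∃ Tm : Mat d F, Tm = dB δ (fun _ => 0) (fun _ => 0) (fun _ => 1) :=
    ⟨_, rfl⟩
  have hT1 : Tmᵀ * Dg * Tm = Dg := by
    rw [hTm, hDg, dB_transpose, dB_mul, dB_mul]
    apply dB_congr
    · intro j
      linear_combination D j * hδ2 j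
    · intro j
      ring
    · intro j
      ring
    · intro j
      ring
  have hT2 : Tm * Tm = 1 := by
    rw [hTm, dB_mul, dB_one]
    apply dB_congr
    · intro j
      linear_combination hδ2 j
    · intro j
      ring
    · intro j
      ring
    · intro j
      ring
  have hT3 : Tm.det = -1 := by
    rw [hTm, dB_det, hδprod]
    simp
  have hT4 : Tm * Je s t (fun _ => 1) * Tm = Je s t δ := by
    rw [hTm, Je, Je, dB_mul, dB_mul]
    apply dB_congr
    · intro j
      linear_combination s * hδ2 j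
    · intro j
      ring
    · intro j
      ring
    · intro j
      ring
  have hJ1 := Je_sq s t l hst' (fun _ : Fin d => (1 : F)) (fun _ => by simp)
  have hJ2 := Je_sa s t (fun _ : Fin d => (1 : F)) D
  have hJ3 := Je_anti s t (fun _ : Fin d => (1 : F))
  have hJ3' := Je_anti s t δ
  rw [← hX] at hJ3 hJ3'
  rw [← hDg] at hJ2
  refine ⟨P * Je s t (fun _ => 1) * P', P * Tm * P', ?_, ?_, ?_, ?_, ?_, ?_, ?_⟩
  · rw [OFPL1.conj_mul hP'P, hJ1, OFPL1.conj_smul hPP' l]
  · rw [hS0, OFPL1.left_mul hP'P, OFPL1.right_mul hP'P, hJ2]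
  · rw [hxe, OFPL1.conj_mul hP'P, OFPL1.conj_mul hP'P, hJ3, Matrix.mul_neg, Matrix.neg_mul]
  · rw [hS0, OFPL1.congr_mul hP'P, hT1]
  · rw [OFPL1.conj_mul hP'P, hT2, OFPL1.conj_one hPP']
  · rw [Matrix.det_conj_of_mul_eq_one hPP' hP'P, hT3]
  · rw [hxe, OFPL1.conj_mul hP'P, OFPL1.conj_mul hP'P, hT4, OFPL1.conj_mul hP'P,
      OFPL1.conj_mul hP'P, hJ3', Matrix.mul_neg, Matrix.neg_mul]

end Cfsg.Agent.Lib.Helper13.OFPLM
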