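import Mathlib
import Cfsg.Prelude.Def_GeometricClasses
import Cfsg.Agent.Lib.Helper13.OPPFIXB

/-!
# Generic version of S5989 / PFIXB (any index type, any quadratic form on `ι → F`)

For the minus-form port (S5991): an isometry `x` of `Q` with `Fix x ≤ (x - 1) V`,
`(x - 1) ^ 3 = 0`, `dim (x - 1) ^ 2 V ≤ 2`, stabilising a nondegenerate subspace `W` of odd
dimension, forces `dim W ≡ 3 (mod 4)`.
-/

set_option autoImplicit false

universe u

open scoped Matrix

namespace Cfsg.Agent.Lib.Helper13.PFixGen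

open Cfsg.Agent.Lib.Helper13.OPPFIXB

theorem gen {ι : Type} [Fintype ι] [DecidableEq ι] {F : Type u} [Field F] (h2 : (2 : F) ≠ 0)
    (Q : QuadraticForm F (ι → F)) (x : Matrix ι ι F) (hQ : ∀ v, Q (x *ᵥ v) = Q v)
    (NV : (ι → F) →ₗ[F] (ι → F)) (hNVapp : ∀ v, NV v = x *ᵥ v - v)
    (hfix : ∀ v, x *ᵥ v = v → v ∈ LinearMap.range NV)
    (hN3 : ∀ v, NV (NV (NV v)) = 0)
    (hr2 : Module.finrank F (LinearMap.range (NV ∘ₗ NV)) ≤ 2)
    (W : Submodule F (ι → F))
    (hWnd : Cfsg.Geo.IsNondegenerateOn (QuadraticMap.polar Q) W)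
    (hWst : ∀ w ∈ W, x *ᵥ w ∈ W)
    (hodd : Odd (Module.finrank F W)) : Module.finrank F W % 4 = 3 := by
  classical
  obtain ⟨BV, hBV⟩ : ∃ BV : LinearMap.BilinForm F (ι → F),
      ∀ u v, BV u v = QuadraticMap.polar Q u v :=
    ⟨QuadraticMap.polarBilin Q, fun u v => rfl⟩
  have hiso : ∀ u v, BV (x *ᵥ u) (x *ᵥ v) = BV u v := by
    intro u v
    rw [hBV, hBV]
    unfold QuadraticMap.polar
    rw [← Matrix.mulVec_add, hQ, hQ, hQ]
  have hadjV : ∀ u v, BV (NV u) v + BV u (NV v) + BV (NV u) (NV v) = 0 := by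
    intro u v
    have e := hiso u v
    have e1 : x *ᵥ u = u + NV u := by rw [hNVapp]; abel
    have e2 : x *ᵥ v = v + NV v := by rw [hNVapp]; abel
    rw [e1, e2] at e
    simp only [map_add, LinearMap.add_apply] at e
    linear_combination e
  have hNW : ∀ w ∈ W, NV w ∈ W := by
    intro w hw
    rw [hNVapp]
    exact W.sub_mem (hWst w hw) hw
  obtain ⟨N, hN⟩ : ∃ N : W →ₗ[F] W, ∀ w : W, (N w : ι → F) = NV w.1 :=
    ⟨NV.restrict hNW, fun w => rfl⟩
  obtain ⟨B, hB⟩ : ∃ B : LinearMap.BilinForm F W, ∀ u v : W, B u v = BV u.1 v.1 :=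
    ⟨BV.restrict W, fun u v => rfl⟩
  refine core h2 B N ?_ ?_ ?_ ?_ ?_ ?_ hodd
  · intro u v
    rw [hB, hB, hBV, hBV, QuadraticMap.polar_comm]
  · intro u hu
    by_contra hne
    have hne' : (u : ι → F) ≠ 0 := fun h => hne (Subtype.ext h)
    obtain ⟨-, ⟨y, hy, hy2⟩⟩ := hWnd u.1 u.2 hne'
    apply hy2
    have h3 := hu ⟨y, hy⟩
    rw [hB, hBV] at h3
    exact h3
  · intro u v
    rw [hB, hB, hB, hN, hN]
    exact hadjV u.1 v.1
  · intro v
    apply Subtype.ext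
    rw [hN, hN, hN]
    exact hN3 v.1
  · intro u k hu hk
    have hu' : NV u.1 = 0 := by rw [← hN, hu]; rfl
    have hk' : NV k.1 = 0 := by rw [← hN, hk]; rfl
    have hufix : x *ᵥ u.1 = u.1 := by
      have h3 := hNVapp u.1
      rw [hu'] at h3
      exact sub_eq_zero.mp h3.symm
    obtain ⟨v, hv⟩ := hfix _ hufix
    rw [hB, ← hv]
    have e := hadjV v k.1
    rw [hk'] at e
    simpa using e
  · have hle : (LinearMap.range (N ∘ₗ N)).map W.subtype ≤ LinearMap.range (NV ∘ₗ NV) := by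
      rintro _ ⟨_, ⟨v, rfl⟩, rfl⟩
      refine ⟨v.1, ?_⟩
      simp only [LinearMap.comp_apply, Submodule.subtype_apply, hN]
    have h1 := Submodule.finrank_mono hle
    rw [Submodule.finrank_map_subtype_eq] at h1
    exact h1.trans hr2

/-- `Cfsg.quadFormMinus` as a quadratic form. -/
noncomputable def minusQ' (m : ℕ) (F : Type*) [Field F] (a b : F) :
    QuadraticForm F ((Fin m ⊕ Fin m) ⊕ Fin 2 → F) :=
  QuadraticMap.copy
    ((∑ i : Fin m, QuadraticMap.proj (R := F) (A := F) (n := (Fin m ⊕ Fin m) ⊕ Fin 2)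
        (Sum.inl (Sum.inl i)) (Sum.inl (Sum.inr i))) +
      (QuadraticMap.proj (R := F) (A := F) (n := (Fin m ⊕ Fin m) ⊕ Fin 2)
          (Sum.inr 0) (Sum.inr 0) +
        a • QuadraticMap.proj (R := F) (A := F) (n := (Fin m ⊕ Fin m) ⊕ Fin 2)
          (Sum.inr 0) (Sum.inr 1) +
        b • QuadraticMap.proj (R := F) (A := F) (n := (Fin m ⊕ Fin m) ⊕ Fin 2)
          (Sum.inr 1) (Sum.inr 1)))
    (Cfsg.quadFormMinus m F a b)
    (by funext v; simp [Cfsg.quadFormMinus, pow_two, mul_assoc])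

theorem coe_minusQ' (m : ℕ) (F : Type*) [Field F] (a b : F) :
    ⇑(minusQ' m F a b) = Cfsg.quadFormMinus m F a b := rfl

end Cfsg.Agent.Lib.Helper13.PFixGen
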