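import Mathlib
import Cfsg.Agent.Lib.Helper94.OMiPStmt
import Cfsg.Agent.Lib.Helper13.PFixGen

/-!
# S5991 / MPFIXB (sub-call by helper94; second seat)

An isometry `x` of the minus form with `Fix x ≤ (x - 1) V`, `(x - 1) ^ 3 = 0` and
`dim (x - 1) ^ 2 V ≤ 2` stabilising a nondegenerate subspace of odd dimension `m` forces
`m ≡ 3 (mod 4)`.  Through the generic `Helper13.PFixGen.gen`.
-/

set_option autoImplicit false

universe u

open scoped Matrix

namespace Cfsg.Agent.Lib.Helper13.OMiMPFIXB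

open Cfsg.Agent.Lib.Helper94.OMiPStmt
open Cfsg.Agent.Lib.Helper13.PFixGen
open Cfsg.Agent.Lib.Helper13.OPPFIXB (two_ne_zero_of_odd)

theorem main : MPFixB.{u} := by
  intro F _ _ hq d m hd hm a b hab x hx hfix hN3 hr2 W hWm hWnd hWst
  have h2 : (2 : F) ≠ 0 := two_ne_zero_of_odd hq
  have key := gen h2 (minusQ' (d - 1) F a b) (x : Matrix (Mi d) (Mi d) F) (fun v => hx v v)
    (NM (x : Matrix (Mi d) (Mi d) F)) ?_ ?_ hN3 hr2 W hWnd ?_ (by rw [hWm]; exact hm)
  · rw [hWm] at key
    exact key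
  · intro v
    unfold NM
    rw [LinearMap.sub_apply, Matrix.toLin'_apply, LinearMap.id_apply]
  · intro v hv
    apply hfix
    unfold FxM
    rw [LinearMap.mem_ker, LinearMap.sub_apply, Matrix.toLin'_apply, LinearMap.id_apply,
      sub_eq_zero]
    exact hv
  · intro w hw
    have h3 := hWst (Submodule.mem_map_of_mem hw)
    rw [Matrix.toLin'_apply] at h3
    exact h3

end Cfsg.Agent.Lib.Helper13.OMiMPFIXB
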