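import Mathlib
import Cfsg.Agent.Lib.Helper94.OPStmt

/-!
# S5989 / NDIVP (call by helper94)

`r ∣ #members` forces `c ≤ m` or `(2d) % c < m`.  Assembly from the counting pieces:
`TopNDP`, `FixNDP`, `DimObsP`, `DerEltP`, `FixCongP`, `UCardP`.
-/

set_option autoImplicit false

universe u

open scoped Matrix

namespace Cfsg.Agent.Lib.Helper13.OPNDIVP

open Cfsg.Agent.Lib.Helper94.OPStmt
open Cfsg.Agent.Lib.Helper37.HypStmt (cc)

theorem cc_even (i : ℕ) : Even (cc i) := by
  unfold cc
  split_ifs with h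
  · exact h
  · exact even_two_mul i

theorem mod_even (d c : ℕ) (hc : Even c) : Even ((2 * d) % c) := by
  obtain ⟨k, hk⟩ := hc
  have h : (2 * d) % c = 2 * (d % k) := by
    rw [hk, ← two_mul, Nat.mul_mod_mul_left]
  rw [h]
  exact even_two_mul _

theorem omegaGL_le {ι : Type} [Fintype ι] [DecidableEq ι] {F : Type u} [Field F]
    (Q : (ι → F) → F) : Cfsg.Geo.omegaGL Q ≤ Cfsg.isometryGroup F Q := by
  intro x hx
  unfold Cfsg.Geo.omegaGL at hx
  obtain ⟨y, _, rfl⟩ := Subgroup.mem_map.mp hx
  exact y.2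

theorem main (hTop : TopNDP.{u}) (hFixND : FixNDP.{u}) (hDim : DimObsP.{u}) (hDer : DerEltP.{u})
    (hFC : FixCongP.{u}) (hUC : UCardP.{u}) : NDivP.{u} := by
  intro F _ _ p _ _ hq d m hd hm hmd W₀ hW₀ hW₀nd r _ hr2 hrp hdvd
  by_contra hcon
  push Not at hcon
  obtain ⟨hmc, hkm⟩ := hcon
  obtain ⟨c, hc⟩ : ∃ c, c = cc (orderOf ((Fintype.card F : ℕ) : ZMod r)) := ⟨_, rfl⟩
  rw [← hc] at hmc hkm
  have hceven : Even c := hc ▸ cc_even _
  have hkeven : Even ((2 * d) % c) := mod_even d c hceven
  have hmlt : m < (2 * d) % c := by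
    rcases hkm.lt_or_eq with h | h
    · exact h
    · exfalso
      rw [h] at hm
      exact (Nat.not_even_iff_odd.mpr hm) hkeven
  have hcpos : 0 < c := by omega
  by_cases hc2d : 2 * d < c
  · -- `U = ⊤`
    have hfin : Module.finrank F ↥(⊤ : Submodule F (P d → F)) = 2 * d := by
      rw [finrank_top, Module.finrank_fintype_fun_eq_card]
      simp [P]
      ring
    have h1 := hUC F p hq d m hm W₀ hW₀ hW₀nd r hr2 hrp ⊤ (hTop F hq d)
      (by rw [hfin]; omega) (by rw [hfin, ← hc]; exact hc2d)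
    apply h1
    have hcard : Nat.card {W : Submodule F (P d → F) // Mem d F m W₀ W ∧ W ≤ ⊤} =
        Nat.card {W : Submodule F (P d → F) // Mem d F m W₀ W} :=
      Nat.card_congr (Equiv.subtypeEquivRight (fun W => by simp))
    rw [hcard]
    exact hdvd
  · push Not at hc2d
    obtain ⟨x, hxO, hxord, hxfix⟩ := hDer F p hq d (by omega) r hr2 hrp
      (by rw [← hc]; exact hc2d) (Or.inl (by rw [← hc]; omega))
    rw [← hc] at hxfix
    have hxI := omegaGL_le _ hxO
    have hxr : x ^ r = 1 := by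
      rw [← hxord]
      exact pow_orderOf_eq_one x
    have hcong := hFC F d m W₀ r x hxI hxr
    have hUnd := hFixND F p hq d r hrp x hxI hxr
    have h1 := hUC F p hq d m hm W₀ hW₀ hW₀nd r hr2 hrp (FxP (x : Matrix (P d) (P d) F)) hUnd
      (by rw [hxfix]; exact hmlt) (by rw [hxfix, ← hc]; exact Nat.mod_lt _ hcpos)
    apply h1
    have hcard : Nat.card {W : Submodule F (P d → F) //
          Mem d F m W₀ W ∧ W ≤ FxP (x : Matrix (P d) (P d) F)} =
        Nat.card {W : Submodule F (P d → F) //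
          Mem d F m W₀ W ∧ StabP (x : Matrix (P d) (P d) F) W} := by
      apply Nat.card_congr
      apply Equiv.subtypeEquivRight
      intro W
      constructor
      · rintro ⟨hM, hle⟩
        refine ⟨hM, ?_⟩
        intro v hv
        obtain ⟨w, hw, rfl⟩ := Submodule.mem_map.mp hv
        have h2 := (mem_FxP _ w).mp (hle hw)
        rw [Matrix.toLin'_apply, h2]
        exact hw
      · rintro ⟨hM, hst⟩
        refine ⟨hM, ?_⟩
        have hd1 := hDim F p hq d r hr2 hrp x hxI hxr W hst hM.2.1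
        rw [← hc, hM.1] at hd1
        have hle : Module.finrank F ↥(W ⊓ FxP (x : Matrix (P d) (P d) F)) ≤ m := by
          rw [← hM.1]
          exact Submodule.finrank_mono inf_le_left
        have h0 : m - Module.finrank F ↥(W ⊓ FxP (x : Matrix (P d) (P d) F)) = 0 := by
          by_contra hne
          have h3 := Nat.le_of_dvd (Nat.pos_of_ne_zero hne) hd1
          omega
        have heq : W ⊓ FxP (x : Matrix (P d) (P d) F) = W := by
          apply Submodule.eq_of_le_of_finrank_le inf_le_left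
          rw [hM.1]
          omega
        rw [← heq]
        exact inf_le_right
    rw [hcard]
    exact (Nat.ModEq.dvd_iff hcong (dvd_refl r)).mp hdvd

end Cfsg.Agent.Lib.Helper13.OPNDIVP
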