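import Mathlib
import Cfsg.Agent.Lib.Helper45.OMiStmt
import Cfsg.Agent.Lib.Helper13.OPNDIVP

/-!
# S5991 / NDIVM (call by helper45)

`r ∣ #members` forces `c ≤ m` or `(2d) % c < m`.  Assembly from the counting pieces
`TopNDM`, `FixNDM`, `DimObsM`, `DerEltM`, `FixCongM`, `UCardM` (port of `Helper13.OPNDIVP`).
-/

set_option autoImplicit false

universe u

open scoped Matrix

namespace Cfsg.Agent.Lib.Helper13.OMiNDIVM

open Cfsg.Agent.Lib.Helper45.OMiStmt
open Cfsg.Agent.Lib.Helper37.HypStmt (cc)
open Cfsg.Agent.Lib.Helper13.OPNDIVP (cc_even mod_even omegaGL_le)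

theorem main (hTop : TopNDM.{u}) (hFixND : FixNDM.{u}) (hDim : DimObsM.{u})
    (hDer : DerEltM.{u}) (hFC : FixCongM.{u}) (hUC : UCardM.{u}) : NDivM.{u} := by
  intro F _ _ p _ _ hq d m hd a b hab hm hmd W₀ hW₀ hW₀nd r _ hr2 hrp hdvd
  by_contra hcon
  push Not at hcon
  obtain ⟨hmc, hkm⟩ := hcon
  obtain ⟨c, hc⟩ : ∃ c, c = cc (orderOf ((Fintype.card F : ℕ) : ZMod r)) := ⟨_, rfl⟩
  rw [← hc] at hmc hkm
  have hceven : Even c := hc ▸ cc_even _
  have hkeven : Even ((2 * d) % c) := mod_even d c hceven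
  have hmlt : m < (2 * d) % c := by
    rcases hkm.lt_or_eq with h | h
    · exact h
    · exfalso
      rw [h] at hm
      exact (Nat.not_even_iff_odd.mpr hm) hkeven
  have hcpos : 0 < c := by omega
  by_cases hc2d : 2 * d < c
  · -- `U = ⊤`
    have hfin : Module.finrank F ↥(⊤ : Submodule F (M d → F)) = 2 * d := by
      rw [finrank_top, Module.finrank_fintype_fun_eq_card]
      simp [M]
      omega
    have h1 := hUC F p hq d m a b hab hm W₀ hW₀ hW₀nd r hr2 hrp ⊤ (hTop F hq d a b hab)
      (by rw [hfin]; omega) (by rw [hfin, ← hc]; exact hc2d)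
    apply h1
    have hcard : Nat.card {W : Submodule F (M d → F) // MemM d F a b m W₀ W ∧ W ≤ ⊤} =
        Nat.card {W : Submodule F (M d → F) // MemM d F a b m W₀ W} :=
      Nat.card_congr (Equiv.subtypeEquivRight (fun W => by simp))
    rw [hcard]
    exact hdvd
  · push Not at hc2d
    obtain ⟨x, hxO, hxord, hxfix⟩ := hDer F p hq d (by omega) a b hab r hr2 hrp
      (by rw [← hc]; exact hc2d) (Or.inl (by rw [← hc]; omega))
    rw [← hc] at hxfix
    have hxI := omegaGL_le _ hxO
    have hxr : x ^ r = 1 := by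
      rw [← hxord]
      exact pow_orderOf_eq_one x
    have hcong := hFC F d m a b W₀ r x hxI hxr
    have hUnd := hFixND F p hq d (by omega) a b hab r hrp x hxI hxr
    have h1 := hUC F p hq d m a b hab hm W₀ hW₀ hW₀nd r hr2 hrp
      (FxM (x : Matrix (M d) (M d) F)) hUnd
      (by rw [hxfix]; exact hmlt) (by rw [hxfix, ← hc]; exact Nat.mod_lt _ hcpos)
    apply h1
    have hcard : Nat.card {W : Submodule F (M d → F) //
          MemM d F a b m W₀ W ∧ W ≤ FxM (x : Matrix (M d) (M d) F)} =
        Nat.card {W : Submodule F (M d → F) //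
          MemM d F a b m W₀ W ∧ StabM (x : Matrix (M d) (M d) F) W} := by
      apply Nat.card_congr
      apply Equiv.subtypeEquivRight
      intro W
      constructor
      · rintro ⟨hM, hle⟩
        refine ⟨hM, ?_⟩
        intro v hv
        obtain ⟨w, hw, rfl⟩ := Submodule.mem_map.mp hv
        have h2 := (mem_FxM _ w).mp (hle hw)
        rw [Matrix.toLin'_apply, h2]
        exact hw
      · rintro ⟨hM, hst⟩
        refine ⟨hM, ?_⟩
        have hd1 := hDim F p hq d (by omega) a b hab r hr2 hrp x hxI hxr W hst hM.2.1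
        rw [← hc, hM.1] at hd1
        have hle : Module.finrank F ↥(W ⊓ FxM (x : Matrix (M d) (M d) F)) ≤ m := by
          rw [← hM.1]
          exact Submodule.finrank_mono inf_le_left
        have h0 : m - Module.finrank F ↥(W ⊓ FxM (x : Matrix (M d) (M d) F)) = 0 := by
          by_contra hne
          have h3 := Nat.le_of_dvd (Nat.pos_of_ne_zero hne) hd1
          omega
        have heq : W ⊓ FxM (x : Matrix (M d) (M d) F) = W := by
          apply Submodule.eq_of_le_of_finrank_le inf_le_left
          rw [hM.1]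
          omega
        rw [← heq]
        exact inf_le_right
    rw [hcard]
    exact (Nat.ModEq.dvd_iff hcong (dvd_refl r)).mp hdvd

end Cfsg.Agent.Lib.Helper13.OMiNDIVM
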