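import Mathlib
import Cfsg.Agent.Lib.Helper18.ReeMultStmt

/-!
# S2113 (Schur multiplier of `²G₂(q)`): shared lemmas for the pieces TT and FIN3
-/

set_option autoImplicit false

namespace Cfsg.Agent.Lib.Helper13.ReeMultCore

open scoped commutatorElement
open Cfsg.Agent.Lib.Helper18 Cfsg.Agent.Lib.Helper18.ReeMultStmt

universe u v w

section Sub

variable {Γ : Type w} [Group Γ] {K : Type v} [Field K]

theorem L_zero (L : K → K → Γ) (hL : ∀ u v u' v', L u v * L u' v' = L (u + u') (v + v')) :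
    L 0 0 = 1 := by
  have h := hL 0 0 0 0
  rw [add_zero] at h
  exact mul_eq_left.mp h

theorem L_inv (L : K → K → Γ) (hL : ∀ u v u' v', L u v * L u' v' = L (u + u') (v + v'))
    (u v : K) : (L u v)⁻¹ = L (-u) (-v) := by
  apply inv_eq_of_mul_eq_one_right
  rw [hL, add_neg_cancel, add_neg_cancel, L_zero L hL]

/-- the subgroup `{L u v}` -/
def mkSub (L : K → K → Γ) (hL : ∀ u v u' v', L u v * L u' v' = L (u + u') (v + v')) :
    Subgroup Γ where
  carrier := {g | ∃ u v, g = L u v}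
  mul_mem' := by
    rintro _ _ ⟨u, v, rfl⟩ ⟨u', v', rfl⟩
    exact ⟨u + u', v + v', hL u v u' v'⟩
  one_mem' := ⟨0, 0, (L_zero L hL).symm⟩
  inv_mem' := by
    rintro _ ⟨u, v, rfl⟩
    exact ⟨-u, -v, L_inv L hL u v⟩

theorem mem_mkSub (L : K → K → Γ) (hL : ∀ u v u' v', L u v * L u' v' = L (u + u') (v + v'))
    (g : Γ) : g ∈ mkSub L hL ↔ ∃ u v, g = L u v := Iff.rfl

end Sub

section Par

variable {G : Type u} [Group G] {K : Type v} [Field K] [Fintype K] {m : ℕ} {φ : K →+* K}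
  {x : K → K → K → G} {e : K → G}

theorem x_zero (h : ReeOutStmt.OPar G K m φ x e) : x 0 0 0 = 1 := by
  have h1 := h.x_mul 0 0 0 0 0 0
  simp only [add_zero, map_zero, mul_zero, sub_zero, zero_mul] at h1
  have h2 : (0 : K) ^ 2 * 0 ^ 3 = 0 := by ring
  rw [h2, sub_zero] at h1
  exact mul_eq_left.mp h1

theorem x_split (h : ReeOutStmt.OPar G K m φ x e) (t u v : K) :
    x t 0 0 * x 0 u v = x t u v := by
  rw [h.x_mul]
  congr 1 <;> simp

/-- the commutator of `x t 0 0` and `x t' 0 0` lies in `A` -/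
theorem x_comm (h : ReeOutStmt.OPar G K m φ x e) (t t' : K) :
    ∃ a b, ⁅x t 0 0, x t' 0 0⁆ = x 0 a b := by
  refine ⟨t' * φ t ^ 3 - t * φ t' ^ 3,
    (-(t ^ 2 * φ t' ^ 3) + t * t' * φ t' ^ 3) - (-(t' ^ 2 * φ t ^ 3) + t' * t * φ t ^ 3) +
      (t' * φ t ^ 3 - t * φ t' ^ 3) * (t + t'), ?_⟩
  have h1 : x t 0 0 * x t' 0 0 = x 0 (t' * φ t ^ 3 - t * φ t' ^ 3)
      ((-(t ^ 2 * φ t' ^ 3) + t * t' * φ t' ^ 3) - (-(t' ^ 2 * φ t ^ 3) + t' * t * φ t ^ 3) +
      (t' * φ t ^ 3 - t * φ t' ^ 3) * (t + t')) * (x t' 0 0 * x t 0 0) := by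
    rw [h.x_mul, h.x_mul, h.x_mul]
    congr 1 <;> ring
  rw [commutatorElement_def, h1]
  group

/-- conjugation of `x 0 u v` by `x t u₀ v₀` -/
theorem x_conj (h : ReeOutStmt.OPar G K m φ x e) (t u₀ v₀ u v : K) :
    x t u₀ v₀ * x 0 u v * (x t u₀ v₀)⁻¹ = x 0 u (v + u * t) := by
  have h1 : x t u₀ v₀ * x 0 u v = x 0 u (v + u * t) * x t u₀ v₀ := by
    rw [h.x_mul, h.x_mul]
    congr 1 <;> simp <;> ring
  rw [h1, mul_inv_cancel_right]

/-- conjugation of `x t 0 0` by `e s` -/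
theorem e_conj (h : ReeOutStmt.OPar G K m φ x e) (s : K) (hs : s ≠ 0) (t : K) :
    e s * x t 0 0 * (e s)⁻¹ = x (s ^ 2 / φ s ^ 3 * t) 0 0 := by
  rw [h.e_x s hs, mul_inv_cancel_right, mul_zero, mul_zero]

end Par

end Cfsg.Agent.Lib.Helper13.ReeMultCore
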