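import Mathlib
import Cfsg.Agent.Lib.Helper18.ReeMultStmt
import Cfsg.Agent.Lib.Helper13.ReeMultCore

/-!
# S2113, piece FIN3: the kernel meets the commutator subgroup of the preimage of `U` trivially
-/

set_option autoImplicit false

namespace Cfsg.Agent.Lib.Helper13.ReeMultFIN3

open scoped commutatorElement
open Cfsg.Agent.Lib.Helper18 Cfsg.Agent.Lib.Helper18.ReeMultStmt
open Cfsg.Agent.Lib.Helper13.ReeMultCore

universe u v w

theorem comm_expand {Γ : Type w} [Group Γ] (p q α β : Γ) :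
    ⁅p * α, q * β⁆ = (p * α * p⁻¹) * ((p * q) * (β * α⁻¹) * (p * q)⁻¹) *
      ((p * q * p⁻¹) * β⁻¹ * (p * q * p⁻¹)⁻¹) * ⁅p, q⁆ := by
  simp only [commutatorElement_def]
  group

theorem main (hLMAP : LMAP.{u, v, w}) (hLMUL : LMUL.{u, v, w}) : FIN3.{u, v, w} := by
  intro Γ _ G _ K _ _ m φ x e σ E U hU s₁ hs0 hs3 hZ hA hC hTT z hzk hzc
  have hL1 : ∀ u v, σ (lft σ E.surj φ x e s₁ u v) = x 0 u v :=
    hLMAP Γ G K m φ x e σ E s₁ hs0 hs3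
  have hL2 : ∀ u v u' v', lft σ E.surj φ x e s₁ u v * lft σ E.surj φ x e s₁ u' v' =
      lft σ E.surj φ x e s₁ (u + u') (v + v') :=
    hLMUL Γ G K m φ x e σ E s₁ hs0 hs3 hA
  have hx0 : x 0 0 0 = 1 := x_zero E.par
  -- conjugation preserves `A₁`
  have hconj : ∀ γ : Γ, σ γ ∈ U → ∀ a ∈ mkSub (lft σ E.surj φ x e s₁) hL2,
      γ * a * γ⁻¹ ∈ mkSub (lft σ E.surj φ x e s₁) hL2 := by
    intro γ hγ a ha
    obtain ⟨t, u₀, v₀, hγ'⟩ := (hU _).mp hγ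
    obtain ⟨u, v, rfl⟩ := ha
    exact ⟨u, v + u * t, hC γ t u₀ v₀ hγ' u v⟩
  have hle : ⁅U.comap σ, U.comap σ⁆ ≤ mkSub (lft σ E.surj φ x e s₁) hL2 := by
    rw [Subgroup.commutator_le]
    intro g₁ hg₁ g₂ hg₂
    rw [Subgroup.mem_comap] at hg₁ hg₂
    obtain ⟨t, u, v, h1⟩ := (hU _).mp hg₁
    obtain ⟨t', u', v', h2⟩ := (hU _).mp hg₂
    have hp : σ (sec σ E.surj (x t 0 0)) = x t 0 0 := sec_spec σ E.surj _
    have hq : σ (sec σ E.surj (x t' 0 0)) = x t' 0 0 := sec_spec σ E.surj _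
    have e1 : σ g₁ = σ (sec σ E.surj (x t 0 0) * lft σ E.surj φ x e s₁ u v) := by
      rw [map_mul, hp, hL1, x_split E.par, h1]
    have e2 : σ g₂ = σ (sec σ E.surj (x t' 0 0) * lft σ E.surj φ x e s₁ u' v') := by
      rw [map_mul, hq, hL1, x_split E.par, h2]
    rw [Cfsg.Agent.Lib.Helper35.Stem.commutator_eq_of_map_eq σ E.cen e1 e2, comm_expand]
    have hpU : σ (sec σ E.surj (x t 0 0)) ∈ U := by
      rw [hp]
      exact (hU _).mpr ⟨t, 0, 0, rfl⟩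
    have hqU : σ (sec σ E.surj (x t' 0 0)) ∈ U := by
      rw [hq]
      exact (hU _).mpr ⟨t', 0, 0, rfl⟩
    have hα : lft σ E.surj φ x e s₁ u v ∈ mkSub (lft σ E.surj φ x e s₁) hL2 := ⟨u, v, rfl⟩
    have hβ : lft σ E.surj φ x e s₁ u' v' ∈ mkSub (lft σ E.surj φ x e s₁) hL2 := ⟨u', v', rfl⟩
    refine Subgroup.mul_mem _ (Subgroup.mul_mem _ (Subgroup.mul_mem _ ?_ ?_) ?_) ?_
    · exact hconj _ hpU _ hα
    · refine hconj _ ?_ _ (Subgroup.mul_mem _ hβ (Subgroup.inv_mem _ hα))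
      rw [map_mul]
      exact Subgroup.mul_mem _ hpU hqU
    · refine hconj _ ?_ _ (Subgroup.inv_mem _ hβ)
      rw [map_mul, map_mul, map_inv]
      exact Subgroup.mul_mem _ (Subgroup.mul_mem _ hpU hqU) (Subgroup.inv_mem _ hpU)
    · obtain ⟨u'', v'', h3⟩ := hTT t t'
      exact ⟨u'', v'', h3⟩
  obtain ⟨u, v, hz⟩ := hle hzc
  have h4 : x 0 u v = x 0 0 0 := by
    rw [← hL1, ← hz, hx0]
    exact hzk
  obtain ⟨_, hu, hv⟩ := E.par.x_inj _ _ _ _ _ _ h4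
  rw [hz, hu, hv]
  exact L_zero _ hL2

end Cfsg.Agent.Lib.Helper13.ReeMultFIN3
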