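import Mathlib
import Cfsg.Prelude.Def_ClassicalGeometry

set_option autoImplicit false

namespace Cfsg.Agent.Lib.Helper13.Refl

open Matrix

variable {F : Type*} [Field F] {n : ℕ}

theorem polarVec_dot (Q : QuadraticForm F (Fin n → F)) (v x : Fin n → F) :
    Cfsg.polarVec ⇑Q v ⬝ᵥ x = QuadraticMap.polar ⇑Q v x := by
  have hx : x = ∑ j, x j • (Pi.single j 1 : Fin n → F) := by
    ext k
    simp [Finset.sum_apply, Pi.single_apply]
  have h1 : QuadraticMap.polar ⇑Q v x = QuadraticMap.polarBilin Q v x := rfl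
  rw [h1]
  conv_rhs => rw [hx]
  rw [map_sum]
  simp only [map_smul, smul_eq_mul, dotProduct, Cfsg.polarVec]
  apply Finset.sum_congr rfl
  intro j _
  rw [mul_comm]
  rfl

theorem reflection_mulVec (Q : QuadraticForm F (Fin n → F)) (v x : Fin n → F) :
    Cfsg.reflectionMatrix ⇑Q v *ᵥ x = x - ((Q v)⁻¹ * QuadraticMap.polar ⇑Q v x) • v := by
  rw [Cfsg.reflectionMatrix, Matrix.sub_mulVec, Matrix.one_mulVec, Matrix.smul_mulVec,
    Matrix.vecMulVec_mulVec, polarVec_dot, mul_smul]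
  simp

theorem reflection_isometry (Q : QuadraticForm F (Fin n → F)) (v : Fin n → F) (hv : Q v ≠ 0)
    (x : Fin n → F) : Q (Cfsg.reflectionMatrix ⇑Q v *ᵥ x) = Q x := by
  rw [reflection_mulVec, sub_eq_add_neg, ← neg_smul, QuadraticMap.map_add (⇑Q),
    QuadraticMap.map_smul, QuadraticMap.polar_smul_right, QuadraticMap.polar_comm (⇑Q) x v]
  simp only [smul_eq_mul]
  field_simp
  ring

theorem reflection_self (Q : QuadraticForm F (Fin n → F)) (v : Fin n → F) (hv : Q v ≠ 0) :
    Cfsg.reflectionMatrix ⇑Q v *ᵥ v = -v := by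
  rw [reflection_mulVec, QuadraticMap.polar_self, two_nsmul, ← mul_two, ← mul_assoc,
    inv_mul_cancel₀ hv, one_mul, two_smul]
  abel

theorem reflection_fix (Q : QuadraticForm F (Fin n → F)) (v x : Fin n → F)
    (h : QuadraticMap.polar ⇑Q v x = 0) : Cfsg.reflectionMatrix ⇑Q v *ᵥ x = x := by
  rw [reflection_mulVec, h, mul_zero, zero_smul, sub_zero]

theorem reflection_det (Q : QuadraticForm F (Fin n → F)) (v : Fin n → F) (hv : Q v ≠ 0) :
    (Cfsg.reflectionMatrix ⇑Q v).det = -1 := by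
  have h1 : Cfsg.reflectionMatrix ⇑Q v =
      1 + vecMulVec ((-(Q v)⁻¹) • v) (Cfsg.polarVec ⇑Q v) := by
    rw [Cfsg.reflectionMatrix, sub_eq_add_neg]
    congr 1
    ext i j
    simp [Matrix.vecMulVec_apply]
    ring
  rw [h1, Matrix.vecMulVec_eq Unit, det_one_add_replicateCol_mul_replicateRow, dotProduct_smul,
    polarVec_dot, QuadraticMap.polar_self]
  simp only [smul_eq_mul, two_nsmul]
  field_simp
  ring

end Cfsg.Agent.Lib.Helper13.Refl
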