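import Mathlib
import Cfsg.Agent.Lib.Helper22.S81Stmt
import Cfsg.Agent.Lib.Helper17.S64FHHALL
import Cfsg.Agent.S1474

/-!
# S1381 / FHD (helper13, spare seat with a light closure)

`main_of (hW : W1C) (hU : UC) : FHD`: pure core `fittingHallOf L = fittingHallOf M` for
`L ≤ M` normalized by `M`, of order prime to its index in `M`, containing `fittingHallOf M`.
-/

set_option autoImplicit false

namespace Cfsg.Agent.Lib.Helper13.S81FHD

universe u

open Cfsg

variable {G : Type u} [Group G] [Finite G]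

theorem fho_le (X : Subgroup G) : Cfsg.fittingHallOf X ≤ X := Subgroup.map_subtype_le _

/-- the image of a normal subgroup of `↥X` is normalized by `X` -/
theorem le_normalizer_map_subtype (X : Subgroup G) (N' : Subgroup ↥X) [N'.Normal] :
    X ≤ Subgroup.normalizer ((N'.map X.subtype : Subgroup G) : Set G) := by
  have h1 : (Subgroup.normalizer (N' : Set ↥X)).map X.subtype ≤
      Subgroup.normalizer ((N'.map X.subtype : Subgroup G) : Set G) :=
    Subgroup.le_normalizer_map X.subtype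
  rw [Subgroup.normalizer_eq_top, ← MonoidHom.range_eq_map, Subgroup.range_subtype] at h1
  exact h1

theorem fho_norm (X : Subgroup G) :
    X ≤ Subgroup.normalizer ((Cfsg.fittingHallOf X : Subgroup G) : Set G) :=
  le_normalizer_map_subtype X (Cfsg.fittingHall ↥X)

theorem fho_nil (X : Subgroup G) : Group.IsNilpotent ↥(Cfsg.fittingHallOf X) := by
  have : Group.IsNilpotent ↥(Cfsg.fittingHall ↥X) := Cfsg.Agent.S1474.fittingHall_nilpotent
  exact Group.nilpotent_of_mulEquiv
    ((Cfsg.fittingHall ↥X).equivMapOfInjective X.subtype X.subtype_injective)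

theorem fho_card (X : Subgroup G) :
    Nat.card ↥(Cfsg.fittingHallOf X) = Nat.card ↥(Cfsg.fittingHall ↥X) :=
  Subgroup.card_map_of_injective X.subtype_injective

theorem fho_cop (X : Subgroup G) :
    (Nat.card ↥(Cfsg.fittingHallOf X)).Coprime ((Cfsg.fittingHallOf X).relIndex X) := by
  have h1 : (Cfsg.fittingHallOf X).relIndex X = (Cfsg.fittingHall ↥X).index := by
    unfold Cfsg.fittingHallOf
    rw [Subgroup.relIndex, Subgroup.subgroupOf,
      Subgroup.comap_map_eq_self_of_injective X.subtype_injective]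
  rw [h1, fho_card]
  exact Cfsg.Agent.Lib.Helper17.S64FHHALL.main

/-- a nilpotent Hall subgroup of `X` normalized by `X` lies in `fittingHallOf X` -/
theorem le_fho (X N : Subgroup G) (hNX : N ≤ X)
    (hnorm : X ≤ Subgroup.normalizer (N : Set G)) (hnil : Group.IsNilpotent ↥N)
    (hcop : (Nat.card ↥N).Coprime (N.relIndex X)) : N ≤ Cfsg.fittingHallOf X := by
  have hn : (N.subgroupOf X).Normal := Subgroup.normal_subgroupOf_of_le_normalizer hnorm
  have hnil' : Group.IsNilpotent ↥(N.subgroupOf X) :=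
    Group.nilpotent_of_mulEquiv (Subgroup.subgroupOfEquivOfLe hNX).symm
  have hcard : Nat.card ↥(N.subgroupOf X) = Nat.card ↥N :=
    Nat.card_congr (Subgroup.subgroupOfEquivOfLe hNX).toEquiv
  have hmem : N.subgroupOf X ≤ Cfsg.fittingHall ↥X := by
    refine le_sSup ⟨hn, hnil', ?_⟩
    rw [hcard]
    exact hcop
  have h := Subgroup.map_mono (f := X.subtype) hmem
  rw [Subgroup.map_subgroupOf_eq_of_le hNX] at h
  exact h

/-- `fittingHall` is invariant under automorphisms -/
theorem fittingHall_map_le {X : Type u} [Group X] [Finite X] (φ : X ≃* X) :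
    (Cfsg.fittingHall X).map (φ : X →* X) ≤ Cfsg.fittingHall X := by
  rw [Subgroup.map_le_iff_le_comap]
  refine sSup_le ?_
  rintro N ⟨hN, hnil, hcop⟩
  rw [← Subgroup.map_le_iff_le_comap]
  refine le_sSup ⟨?_, ?_, ?_⟩
  · exact Subgroup.Normal.map hN (φ : X →* X) φ.surjective
  · exact Group.nilpotent_of_mulEquiv (N.equivMapOfInjective (φ : X →* X) φ.injective)
  · rw [Subgroup.index_map_equiv, Subgroup.card_map_of_injective φ.injective]
    exact hcop

/-- conjugation by an element normalizing `L`, as an automorphism of `↥L` -/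
def conjEquiv (L : Subgroup G) (m : G) (h1 : ∀ l ∈ L, m * l * m⁻¹ ∈ L)
    (h2 : ∀ l ∈ L, m⁻¹ * l * m ∈ L) : ↥L ≃* ↥L where
  toFun l := ⟨m * (l : G) * m⁻¹, h1 l l.2⟩
  invFun l := ⟨m⁻¹ * (l : G) * m, h2 l l.2⟩
  left_inv l := Subtype.ext (by
    show m⁻¹ * (m * (l : G) * m⁻¹) * m = (l : G)
    group)
  right_inv l := Subtype.ext (by
    show m * (m⁻¹ * (l : G) * m) * m⁻¹ = (l : G)
    group)
  map_mul' a b := Subtype.ext (by
    show m * ((a : G) * (b : G)) * m⁻¹ = m * (a : G) * m⁻¹ * (m * (b : G) * m⁻¹)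
    group)

theorem core (M L : Subgroup G) (hLM : L ≤ M)
    (hML : M ≤ Subgroup.normalizer (L : Set G))
    (hcop : (Nat.card ↥L).Coprime (L.relIndex M))
    (hFL : Cfsg.fittingHallOf M ≤ L) :
    Cfsg.fittingHallOf L = Cfsg.fittingHallOf M := by
  apply le_antisymm
  · -- `fittingHallOf L ≤ fittingHallOf M`
    have hNL : Cfsg.fittingHallOf L ≤ L := fho_le L
    have key : ∀ m ∈ M, ∀ n ∈ Cfsg.fittingHallOf L, m * n * m⁻¹ ∈ Cfsg.fittingHallOf L := by
      intro m hm n hn
      have h1 : ∀ l ∈ L, m * l * m⁻¹ ∈ L := fun l hl =>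
        (Subgroup.mem_normalizer_iff.1 (hML hm) l).1 hl
      have h2 : ∀ l ∈ L, m⁻¹ * l * m ∈ L := fun l hl => by
        have := (Subgroup.mem_normalizer_iff.1 (Subgroup.inv_mem _ (hML hm)) l).1 hl
        rwa [inv_inv] at this
      obtain ⟨n', hn', rfl⟩ := hn
      have h3 : (conjEquiv L m h1 h2) n' ∈ Cfsg.fittingHall ↥L :=
        fittingHall_map_le (conjEquiv L m h1 h2) (Subgroup.mem_map_of_mem _ hn')
      exact ⟨_, h3, rfl⟩
    refine le_fho M (Cfsg.fittingHallOf L) (hNL.trans hLM) ?_ (fho_nil L) ?_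
    · intro m hm
      rw [Subgroup.mem_normalizer_iff]
      intro x
      constructor
      · exact key m hm x
      · intro h
        have h1 := key m⁻¹ (M.inv_mem hm) _ h
        have h2 : m⁻¹ * (m * x * m⁻¹) * m⁻¹⁻¹ = x := by group
        rwa [h2] at h1
    · rw [← Subgroup.relIndex_mul_relIndex _ _ _ hNL hLM]
      exact Nat.Coprime.mul_right (fho_cop L)
        (hcop.coprime_dvd_left (Subgroup.card_dvd_of_le hNL))
  · -- `fittingHallOf M ≤ fittingHallOf L`
    refine le_fho L (Cfsg.fittingHallOf M) hFL (hLM.trans (fho_norm M)) (fho_nil M) ?_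
    exact (fho_cop M).coprime_dvd_right
      (Dvd.intro _ (Subgroup.relIndex_mul_relIndex _ _ _ hFL hLM))

/-- `|M| = |A| * |B|` for complements -/
theorem card_of_complIn (A B M : Subgroup G) (hc : Cfsg.IsComplIn A B M) :
    Nat.card ↥M = Nat.card ↥A * Nat.card ↥B := by
  obtain ⟨hAM, hBM, hAB, hprod⟩ := hc
  have hbij : Function.Bijective
      (fun ab : ↥A × ↥B => (⟨(ab.1 : G) * (ab.2 : G),
        M.mul_mem (hAM ab.1.2) (hBM ab.2.2)⟩ : ↥M)) := by
    constructor
    · rintro ⟨a, b⟩ ⟨a', b'⟩ h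
      have h' : (a : G) * (b : G) = (a' : G) * (b' : G) := congrArg Subtype.val h
      have h1 : (a' : G)⁻¹ * (a : G) = (b' : G) * (b : G)⁻¹ := by
        rw [inv_mul_eq_iff_eq_mul, ← mul_assoc, eq_mul_inv_iff_mul_eq]
        exact h'
      have h2 : (a' : G)⁻¹ * (a : G) ∈ A ⊓ B :=
        ⟨A.mul_mem (A.inv_mem a'.2) a.2, h1 ▸ B.mul_mem b'.2 (B.inv_mem b.2)⟩
      rw [hAB] at h2
      have h3 : (a : G) = (a' : G) := by
        have := Subgroup.mem_bot.1 h2
        exact (inv_mul_eq_one.1 this).symm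
      have h4 : (b : G) = (b' : G) := by
        rw [h3] at h'
        exact mul_left_cancel h'
      exact Prod.ext (Subtype.ext h3) (Subtype.ext h4)
    · rintro ⟨m, hm⟩
      obtain ⟨a, ha, b, hb, rfl⟩ := hprod m hm
      exact ⟨(⟨a, ha⟩, ⟨b, hb⟩), rfl⟩
  rw [← Nat.card_congr (Equiv.ofBijective _ hbij), Nat.card_prod]

theorem card_mul_relIndex' (A M : Subgroup G) (hAM : A ≤ M) :
    Nat.card ↥A * A.relIndex M = Nat.card ↥M := by
  have h := Subgroup.card_mul_index (A.subgroupOf M)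
  rw [Nat.card_congr (Subgroup.subgroupOfEquivOfLe hAM).toEquiv] at h
  exact h

theorem main_of (hW : Cfsg.Agent.Lib.Helper22.S81Stmt.W1C.{u})
    (hU : Cfsg.Agent.Lib.Helper22.S81Stmt.UC.{u}) :
    Cfsg.Agent.Lib.Helper22.S81Stmt.FHD.{u} := by
  intro G _ _ hG M K U hM hKU hK hU1
  obtain ⟨hcop, hcompl⟩ := hW hG M K U hM hKU hK
  have hUC := hU hG M K U hM hKU hK hU1
  have hLM : ⁅M, M⁆ ≤ M := hcompl.1
  have hKM : K ≤ M := hcompl.2.1
  have hcard := card_of_complIn _ _ _ hcompl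
  have h1 := card_mul_relIndex' ⁅M, M⁆ M hLM
  have h2 := card_mul_relIndex' K M hKM
  have hL0 : 0 < Nat.card ↥⁅M, M⁆ := Nat.card_pos
  have hK0 : 0 < Nat.card ↥K := Nat.card_pos
  have e1 : (⁅M, M⁆).relIndex M = Nat.card ↥K := by
    rw [hcard] at h1
    exact Nat.eq_of_mul_eq_mul_left hL0 h1
  have e2 : K.relIndex M = Nat.card ↥⁅M, M⁆ := by
    rw [hcard] at h2
    exact Nat.eq_of_mul_eq_mul_left hK0 (h2.trans (mul_comm _ _))
  refine core M ⁅M, M⁆ hLM ?_ ?_ hUC.1
  · have h3 := le_normalizer_map_subtype M (⁅(⊤ : Subgroup ↥M), (⊤ : Subgroup ↥M)⁆)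
    rw [Subgroup.map_commutator, ← MonoidHom.range_eq_map, Subgroup.range_subtype] at h3
    exact h3
  · rw [e1]
    rw [e2] at hcop
    exact hcop.symm

end Cfsg.Agent.Lib.Helper13.S81FHD
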