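import Mathlib
import Cfsg.Agent.Lib.Helper41.TMTwoStmt
import Cfsg.Agent.Lib.Helper44.OTyp1

/-!
# S5987 / TM2TWOMINUS (sub-call by helper41; second seat)

`V = A ⊥ B` for the minus form, `A`, `B` nondegenerate, `finrank A` even: `A` or `B` is of plus
type.  Otherwise both are `hyperbolic ⊥ anisotropic plane` (`QClass.exists_hyp_even`,
`OTyp1.coordM`); the two anisotropic planes are anti-isometric (`OTyp1.exists_iso` applied to
`z₀² + z₀ z₁ + ζ z₁²` and `-(z₀² + z₀ z₁ + ζ' z₁²)`, both with one singular vector), the graph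
of the anti-isometry is a totally singular plane and, together with halves of the hyperbolic
parts, a totally singular `d`-space, against `Inv8.minus_ts_le`.
-/

set_option autoImplicit false

universe u

open scoped Matrix

namespace Cfsg.Agent.Lib.Helper13.TM2TWOMINUS

open Module QuadraticMap
open Cfsg.Agent.Lib.Helper41.TMTwoStmt
open Cfsg.Agent.Lib.Helper45.OMiStmt (M Aniso NDegM)
open Cfsg.Agent.Lib.Helper44.QSpace Cfsg.Agent.Lib.Helper44.QClass Cfsg.Agent.Lib.Helper44.OTyp1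
open Cfsg.Agent.Lib.Helper44.NegPairs

theorem two_ne_zero_of_odd' {F : Type*} [Field F] [Fintype F] (hq : Odd (Fintype.card F)) :
    (2 : F) ≠ 0 := by
  intro h
  have h1 : addOrderOf (1 : F) = 2 := by
    apply addOrderOf_eq_prime
    · rw [nsmul_eq_mul, mul_one]; exact_mod_cast h
    · exact one_ne_zero
  have h2 : addOrderOf (1 : F) ∣ Fintype.card F := addOrderOf_dvd_card
  rw [h1] at h2
  obtain ⟨k, hk⟩ := hq
  omega

/-- the binary form `z₀² + z₀ z₁ + ζ z₁²` -/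
noncomputable def binQ (F : Type*) [Field F] (ζ : F) : QuadraticForm F (Fin 2 → F) :=
  QuadraticMap.proj (R := F) (A := F) (n := Fin 2) 0 0 +
    QuadraticMap.proj (R := F) (A := F) (n := Fin 2) 0 1 +
    ζ • QuadraticMap.proj (R := F) (A := F) (n := Fin 2) 1 1

theorem binQ_apply {F : Type*} [Field F] (ζ : F) (z : Fin 2 → F) :
    binQ F ζ z = z 0 ^ 2 + z 0 * z 1 + ζ * z 1 ^ 2 := by
  unfold binQ
  simp [pow_two]

theorem binQ_ne_zero {F : Type*} [Field F] {ζ : F} (hζ : ∀ t : F, t ^ 2 + t + ζ ≠ 0)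
    {z : Fin 2 → F} (hz : z ≠ 0) : binQ F ζ z ≠ 0 := by
  rw [binQ_apply]
  intro h
  by_cases h1 : z 1 = 0
  · rw [h1] at h
    have h0 : z 0 = 0 := by simpa using h
    apply hz
    funext i
    fin_cases i
    · exact h0
    · exact h1
  · apply hζ (z 0 / z 1)
    field_simp
    linear_combination h

theorem sep_of_aniso {F : Type*} [Field F] (h2 : (2 : F) ≠ 0) {V : Type u} [AddCommGroup V]
    [Module F V] (Q : QuadraticForm F V) (hQ : ∀ v, v ≠ 0 → Q v ≠ 0) : Sep Q := by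
  intro x hx
  by_contra hx0
  have h := hx x
  rw [polar_self'] at h
  rcases mul_eq_zero.mp h with h3 | h3
  · exact h2 h3
  · exact hQ x hx0 h3

theorem card_sing_of_aniso {F : Type*} [Field F] {V : Type u} [AddCommGroup V]
    [Module F V] (Q : QuadraticForm F V) (hQ : ∀ v, v ≠ 0 → Q v ≠ 0) :
    Nat.card {v : V // Q v = 0} = 1 := by
  rw [Nat.card_eq_one_iff_unique]
  refine ⟨⟨?_⟩, ⟨⟨0, map_zero Q⟩⟩⟩
  rintro ⟨v, hv⟩ ⟨w, hw⟩
  apply Subtype.ext
  have hv0 : v = 0 := by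
    by_contra h
    exact hQ v h hv
  have hw0 : w = 0 := by
    by_contra h
    exact hQ w h hw
  show v = w
  rw [hv0, hw0]

/-- two anisotropic planes over a finite field of odd order are anti-isometric -/
theorem exists_anti {F : Type u} [Field F] [Fintype F] (h2 : (2 : F) ≠ 0) {ζ ζ' : F}
    (hζ : ∀ t : F, t ^ 2 + t + ζ ≠ 0) (hζ' : ∀ t : F, t ^ 2 + t + ζ' ≠ 0) :
    ∃ φ : (Fin 2 → F) →ₗ[F] (Fin 2 → F), ∀ z, binQ F ζ' (φ z) = - binQ F ζ z := by
  have hA : ∀ v : Fin 2 → F, v ≠ 0 → binQ F ζ v ≠ 0 := fun v hv => binQ_ne_zero hζ hv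
  have hB : ∀ v : Fin 2 → F, v ≠ 0 → (-binQ F ζ') v ≠ 0 := fun v hv => by
    rw [QuadraticMap.neg_apply]
    exact neg_ne_zero.mpr (binQ_ne_zero hζ' hv)
  have hfin : finrank F (Fin 2 → F) = 2 * (0 + 1) := by simp
  obtain ⟨j, hj⟩ := exists_iso (binQ F ζ) (-binQ F ζ') (sep_of_aniso h2 _ hA)
    (sep_of_aniso h2 _ hB) hfin hfin
    (by rw [card_sing_of_aniso _ hA, card_sing_of_aniso _ hB])
  refine ⟨j, fun z => ?_⟩
  have h3 := hj z
  rw [QuadraticMap.neg_apply] at h3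
  linear_combination -h3

/-- `(u, z) ↦ (u, 0; z)` -/
def inc (F : Type*) [Field F] (k : ℕ) :
    ((Fin k → F) × (Fin 2 → F)) →ₗ[F] ((Fin k ⊕ Fin k) ⊕ Fin 2 → F) where
  toFun w := Sum.elim (Sum.elim w.1 (fun _ => 0)) w.2
  map_add' := by
    intro u v
    funext idx
    rcases idx with (i | i) | t <;> simp
  map_smul' := by
    intro c u
    funext idx
    rcases idx with (i | i) | t <;> simp

theorem inc_ll {F : Type*} [Field F] (k : ℕ) (w : (Fin k → F) × (Fin 2 → F)) (i : Fin k) :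
    inc F k w (.inl (.inl i)) = w.1 i := rfl

theorem inc_lr {F : Type*} [Field F] (k : ℕ) (w : (Fin k → F) × (Fin 2 → F)) (i : Fin k) :
    inc F k w (.inl (.inr i)) = 0 := rfl

theorem inc_r {F : Type*} [Field F] (k : ℕ) (w : (Fin k → F) × (Fin 2 → F)) (t : Fin 2) :
    inc F k w (.inr t) = w.2 t := rfl

/-- a nondegenerate subspace of even positive dimension either contains a totally singular
subspace of half its dimension or has minus-type coordinates -/
theorem dich {F : Type u} [Field F] [Fintype F] {ι : Type} [Fintype ι]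
    (Q : QuadraticForm F (ι → F)) (X : Submodule F (ι → F))
    (hX : ∀ x ∈ X, (∀ y ∈ X, polar Q x y = 0) → x = 0) (k : ℕ)
    (hk : finrank F X = 2 * (k + 1)) :
    (∃ U : Submodule F (ι → F), U ≤ X ∧ (∀ u ∈ U, Q u = 0) ∧
      2 * finrank F U = finrank F X) ∨
    (∃ (Ψ : ↥X ≃ₗ[F] ((Fin k ⊕ Fin k) ⊕ Fin 2 → F)) (ζ : F), (∀ t : F, t ^ 2 + t + ζ ≠ 0) ∧
      ∀ v : ↥X, Q (v : ι → F) = (∑ i, Ψ v (.inl (.inl i)) * Ψ v (.inl (.inr i))) +
        binQ F ζ (fun t => Ψ v (.inr t))) := by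
  obtain ⟨QX, hQX⟩ : ∃ QX : QuadraticForm F ↥X, ∀ v : ↥X, QX v = Q (v : ι → F) :=
    ⟨Q.comp X.subtype, fun v => rfl⟩
  have hpol : ∀ u v : ↥X, polar QX u v = polar Q (u : ι → F) (v : ι → F) := by
    intro u v
    unfold QuadraticMap.polar
    rw [hQX, hQX, hQX]
    rfl
  have hS : Sep QX := by
    intro x hx
    apply Subtype.ext
    apply hX x.1 x.2
    intro y hy
    have h3 := hx ⟨y, hy⟩
    rw [hpol] at h3
    exact h3
  rcases exists_hyp_even k ↥X QX hk hS with ⟨e, f, hH⟩ | ⟨e, f, x, y, ζ, hH, hE, horth⟩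
  · left
    obtain ⟨Ψ, hΨ⟩ := coordP QX hH hk
    obtain ⟨incl, hincl1, hincl2⟩ : ∃ incl : (Fin (k + 1) → F) →ₗ[F]
        ((Fin (k + 1) ⊕ Fin (k + 1)) ⊕ Fin 0 → F),
        (∀ u i, incl u (.inl (.inl i)) = u i) ∧ (∀ u i, incl u (.inl (.inr i)) = 0) :=
      ⟨{ toFun := fun u => Sum.elim (Sum.elim u (fun _ => 0)) (fun _ => 0)
         map_add' := by
           intro u v
           funext idx
           rcases idx with (i | i) | t <;> simp
         map_smul' := by
           intro c u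
           funext idx
           rcases idx with (i | i) | t <;> simp }, fun u i => rfl, fun u i => rfl⟩
    obtain ⟨L, hL⟩ : ∃ L : (Fin (k + 1) → F) →ₗ[F] (ι → F),
        ∀ u, L u = ((Ψ.symm (incl u) : ↥X) : ι → F) :=
      ⟨X.subtype ∘ₗ Ψ.symm.toLinearMap ∘ₗ incl, fun u => rfl⟩
    have hLinj : Function.Injective L := by
      intro u u' h
      rw [hL, hL] at h
      have h1 : incl u = incl u' := Ψ.symm.injective (Subtype.ext h)
      funext i
      have h3 := congrFun h1 (.inl (.inl i))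
      rw [hincl1, hincl1] at h3
      exact h3
    refine ⟨LinearMap.range L, ?_, ?_, ?_⟩
    · rintro _ ⟨u, rfl⟩
      rw [hL]
      exact (Ψ.symm (incl u)).2
    · rintro _ ⟨u, rfl⟩
      rw [hL, ← hQX, hΨ]
      apply Finset.sum_eq_zero
      intro i _
      rw [LinearEquiv.apply_symm_apply, hincl2, mul_zero]
    · rw [LinearMap.finrank_range_of_inj hLinj, hk]
      simp
  · right
    obtain ⟨Ψ, hΨ⟩ := coordM QX hH hE horth hk
    refine ⟨Ψ, ζ, hE.2.2.2, fun v => ?_⟩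
    rw [← hQX, hΨ, binQ_apply]

theorem main : TwoMinus.{u} := by
  intro F _ _ hq d hd a b hab A B hA hB horth hsup hAeven
  classical
  have h2 : (2 : F) ≠ 0 := two_ne_zero_of_odd' hq
  by_contra hcon
  push Not at hcon
  obtain ⟨hnA, hnB⟩ := hcon
  obtain ⟨Q, hQdef⟩ : ∃ Q : QuadraticForm F (M d → F), Q = minusQ (d - 1) F a b := ⟨_, rfl⟩
  have hQ : ∀ v, Q v = Cfsg.quadFormMinus (d - 1) F a b v := fun v => by rw [hQdef]; rfl
  have hpolQ : ∀ u v, polar Q u v = polar (Cfsg.quadFormMinus (d - 1) F a b) u v := by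
    intro u v
    unfold QuadraticMap.polar
    rw [hQ, hQ, hQ]
  have hA' : ∀ x ∈ A, (∀ y ∈ A, polar Q x y = 0) → x = 0 := by
    intro x hx hxy
    by_contra hx0
    obtain ⟨-, ⟨y, hy, hy2⟩⟩ := hA x hx hx0
    exact hy2 (by rw [← hpolQ]; exact hxy y hy)
  have hB' : ∀ x ∈ B, (∀ y ∈ B, polar Q x y = 0) → x = 0 := by
    intro x hx hxy
    by_contra hx0
    obtain ⟨-, ⟨y, hy, hy2⟩⟩ := hB x hx hx0
    exact hy2 (by rw [← hpolQ]; exact hxy y hy)
  have hinf : A ⊓ B = ⊥ := by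
    rw [Submodule.eq_bot_iff]
    rintro v ⟨hvA, hvB⟩
    apply hA' v hvA
    intro y hy
    rw [hpolQ, QuadraticMap.polar_comm]
    exact horth y hy v hvB
  have hdimV : finrank F (M d → F) = 2 * d := by
    rw [Module.finrank_fintype_fun_eq_card]
    simp [M]
    omega
  have hdim : finrank F A + finrank F B = 2 * d := by
    have h3 := Submodule.finrank_sup_add_finrank_inf_eq A B
    rw [hsup, hinf, finrank_top, finrank_bot, add_zero, hdimV] at h3
    exact h3.symm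
  obtain ⟨e, he⟩ := hAeven
  have hbotTS : TSubM d F a b (⊥ : Submodule F (M d → F)) := by
    intro w hw
    rw [(Submodule.mem_bot F).mp hw, ← hQ]
    exact map_zero Q
  have he1 : 1 ≤ e := by
    by_contra h
    apply hnA
    refine ⟨⊥, bot_le, hbotTS, ?_⟩
    rw [finrank_bot]
    omega
  have hf1 : 1 ≤ d - e := by
    by_contra h
    apply hnB
    refine ⟨⊥, bot_le, hbotTS, ?_⟩
    rw [finrank_bot]
    omega
  obtain ⟨k, hk⟩ : ∃ k, e = k + 1 := ⟨e - 1, by omega⟩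
  obtain ⟨l, hl⟩ : ∃ l, d - e = l + 1 := ⟨d - e - 1, by omega⟩
  have hkA : finrank F A = 2 * (k + 1) := by omega
  have hlB : finrank F B = 2 * (l + 1) := by omega
  rcases dich Q A hA' k hkA with ⟨U, hUA, hUts, hUd⟩ | ⟨ΨA, ζA, hζA, hΨA⟩
  · exact hnA ⟨U, hUA, fun w hw => by rw [← hQ]; exact hUts w hw, hUd⟩
  rcases dich Q B hB' l hlB with ⟨U, hUB, hUts, hUd⟩ | ⟨ΨB, ζB, hζB, hΨB⟩
  · exact hnB ⟨U, hUB, fun w hw => by rw [← hQ]; exact hUts w hw, hUd⟩
  obtain ⟨φ, hφ⟩ := exists_anti h2 hζA hζB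
  obtain ⟨L, hL⟩ : ∃ L : (((Fin k → F) × (Fin l → F)) × (Fin 2 → F)) →ₗ[F] (M d → F),
      ∀ w, L w = ((ΨA.symm (inc F k (w.1.1, w.2)) : ↥A) : M d → F) +
        ((ΨB.symm (inc F l (w.1.2, φ w.2)) : ↥B) : M d → F) :=
    ⟨A.subtype ∘ₗ ΨA.symm.toLinearMap ∘ₗ inc F k ∘ₗ
        (LinearMap.prod (LinearMap.fst F _ _ ∘ₗ LinearMap.fst F _ _) (LinearMap.snd F _ _)) +
      B.subtype ∘ₗ ΨB.symm.toLinearMap ∘ₗ inc F l ∘ₗ
        (LinearMap.prod (LinearMap.snd F _ _ ∘ₗ LinearMap.fst F _ _)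
          (φ ∘ₗ LinearMap.snd F _ _)), fun w => rfl⟩
  have hQA : ∀ w : (Fin k → F) × (Fin 2 → F),
      Q ((ΨA.symm (inc F k w) : ↥A) : M d → F) = binQ F ζA w.2 := by
    intro w
    rw [hΨA, LinearEquiv.apply_symm_apply]
    have h3 : (∑ i, inc F k w (.inl (.inl i)) * inc F k w (.inl (.inr i))) = 0 := by
      apply Finset.sum_eq_zero
      intro i _
      rw [inc_lr, mul_zero]
    rw [h3, zero_add]
    rfl
  have hQB : ∀ w : (Fin l → F) × (Fin 2 → F),
      Q ((ΨB.symm (inc F l w) : ↥B) : M d → F) = binQ F ζB w.2 := by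
    intro w
    rw [hΨB, LinearEquiv.apply_symm_apply]
    have h3 : (∑ i, inc F l w (.inl (.inl i)) * inc F l w (.inl (.inr i))) = 0 := by
      apply Finset.sum_eq_zero
      intro i _
      rw [inc_lr, mul_zero]
    rw [h3, zero_add]
    rfl
  have hTS : ∀ w ∈ LinearMap.range L, minusQ (d - 1) F a b w = 0 := by
    rintro _ ⟨w, rfl⟩
    rw [← hQdef, hL, QuadraticMap.map_add (⇑Q) _ _, hQA, hQB, hφ, hpolQ,
      horth _ (ΨA.symm (inc F k (w.1.1, w.2))).2 _ (ΨB.symm (inc F l (w.1.2, φ w.2))).2]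
    ring
  have hLinj : Function.Injective L := by
    rw [injective_iff_map_eq_zero]
    intro w hw
    rw [hL] at hw
    have ha : ((ΨA.symm (inc F k (w.1.1, w.2)) : ↥A) : M d → F) ∈ A ⊓ B := by
      refine ⟨(ΨA.symm (inc F k (w.1.1, w.2))).2, ?_⟩
      rw [eq_neg_of_add_eq_zero_left hw]
      exact B.neg_mem (ΨB.symm (inc F l (w.1.2, φ w.2))).2
    rw [hinf] at ha
    have ha0 : ((ΨA.symm (inc F k (w.1.1, w.2)) : ↥A) : M d → F) = 0 :=
      (Submodule.mem_bot F).mp ha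
    have hb0 : ((ΨB.symm (inc F l (w.1.2, φ w.2)) : ↥B) : M d → F) = 0 := by
      rw [ha0, zero_add] at hw
      exact hw
    have hia : inc F k (w.1.1, w.2) = 0 := by
      have h3 : ΨA.symm (inc F k (w.1.1, w.2)) = 0 := Subtype.ext ha0
      exact ΨA.symm.map_eq_zero_iff.mp h3
    have hib : inc F l (w.1.2, φ w.2) = 0 := by
      have h3 : ΨB.symm (inc F l (w.1.2, φ w.2)) = 0 := Subtype.ext hb0
      exact ΨB.symm.map_eq_zero_iff.mp h3
    have h11 : w.1.1 = 0 := by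
      funext i
      have h3 := congrFun hia (.inl (.inl i))
      rw [inc_ll] at h3
      exact h3
    have h2' : w.2 = 0 := by
      funext t
      have h3 := congrFun hia (.inr t)
      rw [inc_r] at h3
      exact h3
    have h12 : w.1.2 = 0 := by
      funext i
      have h3 := congrFun hib (.inl (.inl i))
      rw [inc_ll] at h3
      exact h3
    exact Prod.ext (Prod.ext h11 h12) h2'
  have hle := Cfsg.Agent.Lib.Helper44.Inv8.minus_ts_le (sep_minusQ h2 (d - 1) a b hab) hab hTS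
  rw [LinearMap.finrank_range_of_inj hLinj] at hle
  have hdom : finrank F (((Fin k → F) × (Fin l → F)) × (Fin 2 → F)) = k + l + 2 := by
    simp
  rw [hdom] at hle
  omega

end Cfsg.Agent.Lib.Helper13.TM2TWOMINUS
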