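import Mathlib
import Cfsg.Agent.Lib.Helper44.ODet
import Cfsg.Agent.Lib.Helper44.NegPairs
import Cfsg.Agent.Lib.Helper44.TPStmt

/-!
# S5973 / INVPAR (call by helper44)

An involution of `Omega^+_(2d)(q)`, `q` odd, has a `-1`-eigenspace of even dimension: its
determinant is `1` and equals `(-1) ^ finrank (Fm x)`.  (Port of `Helper82.TSINVPAR` to the plus
form.)
-/

set_option autoImplicit false

universe u

open scoped Matrix

namespace Cfsg.Agent.Lib.Helper13.TPINVPAR

open Cfsg.Agent.Lib.Helper44.TPStmt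

theorem two_ne_zero_of_odd (F : Type u) [Field F] [Fintype F] (h : Odd (Fintype.card F)) :
    (2 : F) ≠ 0 := by
  intro h2
  have h3 : ringChar F = 2 := by
    have hd : ringChar F ∣ 2 := ringChar.dvd (by exact_mod_cast h2)
    rcases (Nat.dvd_prime Nat.prime_two).1 hd with h | h
    · exact absurd h (CharP.ringChar_ne_one)
    · exact h
  have h4 := FiniteField.even_card_of_char_two h3
  rcases h with ⟨k, hk⟩
  omega

/-- the determinant of a linear involution is `(-1) ^ dim (-1-eigenspace)` -/
theorem det_invol {F : Type u} [Field F] {V : Type*} [AddCommGroup V] [Module F V]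
    [FiniteDimensional F V] (h2 : (2 : F) ≠ 0) (A : V →ₗ[F] V)
    (hA : A ∘ₗ A = LinearMap.id) :
    LinearMap.det A = (-1) ^ Module.finrank F ↥(LinearMap.ker (A + LinearMap.id)) := by
  have hAA : ∀ v, A (A v) = v := fun v => by
    have h := congrArg (fun f : V →ₗ[F] V => f v) hA
    simpa using h
  have hPm : ∀ v, v ∈ LinearMap.ker (A - LinearMap.id) ↔ A v = v := by
    intro v
    rw [LinearMap.mem_ker, LinearMap.sub_apply, LinearMap.id_apply, sub_eq_zero]
  have hNm : ∀ v, v ∈ LinearMap.ker (A + LinearMap.id) ↔ A v = -v := by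
    intro v
    rw [LinearMap.mem_ker, LinearMap.add_apply, LinearMap.id_apply, add_eq_zero_iff_eq_neg]
  have hc : IsCompl (LinearMap.ker (A - LinearMap.id)) (LinearMap.ker (A + LinearMap.id)) := by
    constructor
    · rw [disjoint_iff, eq_bot_iff]
      intro v hv
      obtain ⟨h1, h2'⟩ := Submodule.mem_inf.1 hv
      rw [hPm] at h1
      rw [hNm] at h2'
      have h3 : (2 : F) • v = 0 := by
        rw [two_smul]
        nth_rewrite 1 [← h1]
        rw [h2', neg_add_cancel]
      rcases smul_eq_zero.1 h3 with h | h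
      · exact absurd h h2
      · exact (Submodule.mem_bot F).2 h
    · rw [codisjoint_iff, eq_top_iff]
      intro v _
      have h1 : (2 : F)⁻¹ • (v + A v) ∈ LinearMap.ker (A - LinearMap.id) := by
        rw [hPm, map_smul, map_add, hAA, add_comm]
      have h2' : (2 : F)⁻¹ • (v - A v) ∈ LinearMap.ker (A + LinearMap.id) := by
        rw [hNm, map_smul, map_sub, hAA, ← smul_neg, neg_sub]
      have h3 : v = (2 : F)⁻¹ • (v + A v) + (2 : F)⁻¹ • (v - A v) := by
        rw [← smul_add, add_add_sub_cancel, ← two_smul F v, smul_smul, inv_mul_cancel₀ h2,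
          one_smul]
      rw [h3]
      exact Submodule.add_mem_sup h1 h2'
  have hconj : A = (Submodule.prodEquivOfIsCompl _ _ hc).toLinearMap ∘ₗ
      (LinearMap.prodMap LinearMap.id (-LinearMap.id)) ∘ₗ
      (Submodule.prodEquivOfIsCompl _ _ hc).symm.toLinearMap := by
    apply LinearMap.ext
    intro v
    obtain ⟨⟨a, b⟩, rfl⟩ := (Submodule.prodEquivOfIsCompl _ _ hc).surjective v
    simp only [LinearMap.comp_apply, LinearEquiv.coe_coe, LinearEquiv.symm_apply_apply,
      LinearMap.prodMap_apply, LinearMap.id_apply, LinearMap.neg_apply]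
    rw [Submodule.coe_prodEquivOfIsCompl', Submodule.coe_prodEquivOfIsCompl']
    simp only
    rw [map_add, (hPm a).1 a.2, (hNm b).1 b.2]
    simp
  have hneg : (-LinearMap.id : ↥(LinearMap.ker (A + LinearMap.id)) →ₗ[F] _)
      = (-1 : F) • LinearMap.id := by
    apply LinearMap.ext
    intro v
    rw [LinearMap.neg_apply, LinearMap.smul_apply, LinearMap.id_apply, neg_smul, one_smul]
  conv_lhs => rw [hconj]
  rw [LinearMap.det_conj, LinearMap.det_prodMap, LinearMap.det_id, one_mul, hneg,
    LinearMap.det_smul, LinearMap.det_id, mul_one]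

theorem main : InvPar.{u} := by
  intro F _ _ hodd d x hx hx2
  classical
  have h2 : (2 : F) ≠ 0 := two_ne_zero_of_odd F hodd
  have hdet : (x : Matrix (J d) (J d) F).det = 1 := by
    obtain ⟨g, hg, rfl⟩ := hx
    have h1 := Cfsg.Agent.Lib.Helper44.ODet.omega_le_special
      (Cfsg.Agent.Lib.Helper44.NegPairs.plusQ d F) hg
    have h1' := (Cfsg.Agent.Lib.Helper44.ODet.mem_special_iff
      (Cfsg.Agent.Lib.Helper44.NegPairs.plusQ d F) g).1 h1
    have h5 := congrArg Units.val h1'
    rw [Matrix.GeneralLinearGroup.val_det_apply] at h5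
    exact h5
  have hA : Matrix.toLin' (x : Matrix (J d) (J d) F) ∘ₗ Matrix.toLin' (x : Matrix (J d) (J d) F)
      = LinearMap.id := by
    rw [← Matrix.toLin'_mul, ← Matrix.toLin'_one]
    congr 1
    have h := congrArg (fun g : Matrix.GeneralLinearGroup (J d) F =>
      (g : Matrix (J d) (J d) F)) hx2
    simpa [pow_two] using h
  have h3 := det_invol h2 (Matrix.toLin' (x : Matrix (J d) (J d) F)) hA
  rw [LinearMap.det_toLin', hdet] at h3
  have h4 : (-1 : F) ≠ 1 := by
    intro h
    apply h2
    have h6 : (2 : F) = 1 - (-1) := by ring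
    rw [h6, h]
    ring
  exact (neg_one_pow_eq_one_iff_even h4).1 h3.symm


end Cfsg.Agent.Lib.Helper13.TPINVPAR
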