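import Mathlib
import Cfsg.Agent.Lib.Helper44.TPStmt
import Cfsg.Agent.Lib.Helper44.NegPairs

/-!
# S5973 / TSEVEN (call by helper44): `i` even; invariant totally singular subspaces of finrank
`i s` orthogonal to the fixed space, by induction on `s` from `FixND`, `Perp`, `OrthSum`,
`PairFind`.  (Port of `Helper37.TSTSEVEN` to the plus form.)
-/

set_option autoImplicit false

universe u

open scoped Matrix

namespace Cfsg.Agent.Lib.Helper13.TPTSEVEN

open Cfsg.Agent.Lib.Helper44.TPStmt

section basics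

variable {F : Type u} [Field F] {d : ℕ}

theorem polar_add_l (a c y : J d → F) :
    QuadraticMap.polar (Cfsg.quadFormPlus d F) (a + c) y =
      QuadraticMap.polar (Cfsg.quadFormPlus d F) a y +
        QuadraticMap.polar (Cfsg.quadFormPlus d F) c y :=
  QuadraticMap.polar_add_left (Cfsg.Agent.Lib.Helper44.NegPairs.plusQ d F) a c y

theorem polar_zero_l (y : J d → F) :
    QuadraticMap.polar (Cfsg.quadFormPlus d F) 0 y = 0 :=
  QuadraticMap.polar_zero_left (Cfsg.Agent.Lib.Helper44.NegPairs.plusQ d F) y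

theorem stab_sup {x : Matrix (J d) (J d) F} {A C : Submodule F (J d → F)} (hA : Stab x A)
    (hC : Stab x C) : Stab x (A ⊔ C) := by
  unfold Stab at *
  rw [Submodule.map_sup]
  exact sup_le_sup hA hC

theorem stab_Fx (x : Matrix (J d) (J d) F) : Stab x (Fx x) := by
  unfold Stab
  rintro _ ⟨v, hv, rfl⟩
  have hv2 : v ∈ LinearMap.ker (Matrix.toLin' x - LinearMap.id) := hv
  rw [LinearMap.mem_ker, LinearMap.sub_apply, Matrix.toLin'_apply, LinearMap.id_apply,
    sub_eq_zero] at hv2
  rw [Matrix.toLin'_apply, hv2]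
  exact hv

end basics

theorem main : FixND.{u} → Perp.{u} → OrthSum.{u} → PairFind.{u} → TsEven.{u} := by
  intro hFix hPerp hOS hPF F _ _ p _ _ d r _ hr2 hrp hev0 x hx hxr s
  obtain ⟨i, hi⟩ : ∃ i, i = orderOf ((Fintype.card F : ℕ) : ZMod r) := ⟨_, rfl⟩
  rw [← hi]
  have hFN := hFix F p d r hrp x hx hxr
  have key : ∀ s : ℕ, (s = 0 ∨ i * (2 * s + (r - 1) / i) +
        Module.finrank F ↥(Fx (x : Matrix (J d) (J d) F)) ≤ 2 * d + i) →
      ∃ U G : Submodule F (J d → F), U ≤ G ∧ Stab (x : Matrix (J d) (J d) F) U ∧ TSub d F U ∧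
        Module.finrank F ↥U = i * s ∧ Stab (x : Matrix (J d) (J d) F) G ∧ NDeg d F G ∧
        Module.finrank F ↥G = 2 * i * s ∧
        ∀ u ∈ G, ∀ v ∈ Fx (x : Matrix (J d) (J d) F),
          QuadraticMap.polar (Cfsg.quadFormPlus d F) u v = 0 := by
    intro s
    induction s with
    | zero =>
      intro _
      have hS0 : Stab (x : Matrix (J d) (J d) F) (⊥ : Submodule F (J d → F)) := by
        unfold Stab
        rw [Submodule.map_bot]
      refine ⟨⊥, ⊥, le_rfl, hS0, ?_, ?_, hS0, ?_, ?_, ?_⟩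
      · intro w hw
        rw [(Submodule.mem_bot F).mp hw]
        exact QuadraticMap.map_zero (Cfsg.Agent.Lib.Helper44.NegPairs.plusQ d F)
      · rw [mul_zero]
        exact finrank_bot F (J d → F)
      · intro w hw hw0
        exact absurd ((Submodule.mem_bot F).mp hw) hw0
      · rw [mul_zero]
        exact finrank_bot F (J d → F)
      · intro u hu v _
        rw [(Submodule.mem_bot F).mp hu]
        exact polar_zero_l v
    | succ s ih =>
      intro hs
      have hs' : i * (2 * (s + 1) + (r - 1) / i) +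
          Module.finrank F ↥(Fx (x : Matrix (J d) (J d) F)) ≤ 2 * d + i := by
        rcases hs with h | h
        · exact absurd h (Nat.succ_ne_zero s)
        · exact h
      have hmono : i * (2 * s + (r - 1) / i) ≤ i * (2 * (s + 1) + (r - 1) / i) :=
        Nat.mul_le_mul_left _ (by omega)
      obtain ⟨U, G, hUG, hUS, hUT, hUd, hGS, hGN, hGd, hGperp⟩ := ih (Or.inr (by omega))
      obtain ⟨hZN, hGF, hZd⟩ := hOS F d G (Fx (x : Matrix (J d) (J d) F)) hGN hFN hGperp
      obtain ⟨Y, hZY, hYN, hZYbot, hdim, hYinv⟩ := hPerp F d _ hZN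
      have hYS := hYinv x hx (stab_sup hGS (stab_Fx _))
      have hYF : Y ⊓ Fx (x : Matrix (J d) (J d) F) = ⊥ := by
        apply le_bot_iff.mp
        rw [← hZYbot, inf_comm]
        exact inf_le_inf_right _ le_sup_right
      have e1 : i * (2 * (s + 1) + (r - 1) / i) = 2 * i * s + i * ((r - 1) / i + 1) + i := by
        ring
      have hYd : i * ((r - 1) / i + 1) ≤ Module.finrank F ↥Y := by
        rw [hZd, hGd] at hdim
        omega
      obtain ⟨U', G', hU'G', hG'Y, hU'S, hU'T, hU'd, hG'S, hG'N, hG'd⟩ :=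
        hPF F p d r hr2 hrp hev0 x hx hxr Y hYS hYN hYF (by rw [← hi]; exact hYd)
      have hGG' : ∀ u ∈ G, ∀ v ∈ G', QuadraticMap.polar (Cfsg.quadFormPlus d F) u v = 0 :=
        fun u hu v hv => hZY u (Submodule.mem_sup_left hu) v (hG'Y hv)
      obtain ⟨hG1N, hGG'bot, hG1d⟩ := hOS F d G G' hGN hG'N hGG'
      have hUU'bot : U ⊓ U' = ⊥ := by
        apply le_bot_iff.mp
        rw [← hGG'bot]
        exact inf_le_inf hUG hU'G'
      refine ⟨U ⊔ U', G ⊔ G', sup_le_sup hUG hU'G', stab_sup hUS hU'S, ?_, ?_,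
        stab_sup hGS hG'S, hG1N, ?_, ?_⟩
      · intro w hw
        obtain ⟨u, hu, u', hu', rfl⟩ := Submodule.mem_sup.mp hw
        have h1 := hUT u hu
        have h2 := hU'T u' hu'
        have h3 := hGG' u (hUG hu) u' (hU'G' hu')
        unfold QuadraticMap.polar at h3
        rw [h1, h2, sub_zero, sub_zero] at h3
        exact h3
      · have h := Submodule.finrank_sup_add_finrank_inf_eq U U'
        rw [hUU'bot, finrank_bot, add_zero, hUd, hU'd, ← hi] at h
        rw [h]
        ring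
      · rw [hG1d, hGd, hG'd, ← hi]
        ring
      · intro u hu v hv
        obtain ⟨g, hg, g', hg', rfl⟩ := Submodule.mem_sup.mp hu
        rw [polar_add_l, hGperp g hg v hv, zero_add, QuadraticMap.polar_comm]
        exact hZY v (Submodule.mem_sup_right hv) g' (hG'Y hg')
  intro hs
  obtain ⟨U, G, hUG, hUS, hUT, hUd, hGS, hGN, hGd, hGperp⟩ := key s hs
  refine ⟨U, hUS, hUT, hUd, ?_, fun u hu v hv => hGperp u (hUG hu) v hv⟩
  rw [Submodule.eq_bot_iff]
  rintro v ⟨hv1, hv2⟩
  by_contra hv0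
  obtain ⟨⟨y, hy, hyv⟩, _⟩ := hFN v hv2 hv0
  apply hyv
  rw [QuadraticMap.polar_comm]
  exact hGperp v (hUG hv1) y hy

end Cfsg.Agent.Lib.Helper13.TPTSEVEN
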